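import Mathlib
import Cfsg.Agent.S0263
import Cfsg.Agent.Helper4.Basic

/-! Sylow `p`-subgroups of `GL_2(q)` in the defining characteristic: the upper unitriangular
group, its normaliser (the Borel subgroup) and centralisers of its elements. -/

set_option autoImplicit false

namespace Cfsg.Agent.Helper4.GL2

open Matrix

variable {F : Type*} [Field F]

/-- The upper triangular element with diagonal `a, d` and corner `x`. -/
noncomputable def mkUT (a d : Fˣ) (x : F) : GL (Fin 2) F :=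
  Matrix.GeneralLinearGroup.mkOfDetNeZero !![(a : F), x; 0, (d : F)]
    (by simp [Matrix.det_fin_two])

theorem mkUT_val (a d : Fˣ) (x : F) :
    ((mkUT a d x : GL (Fin 2) F) : Matrix (Fin 2) (Fin 2) F) = !![(a : F), x; 0, (d : F)] := rfl

/-- The elementary upper unitriangular matrix. -/
noncomputable def T (b : F) : GL (Fin 2) F := mkUT 1 1 b

theorem T_val (b : F) : ((T b : GL (Fin 2) F) : Matrix (Fin 2) (Fin 2) F) = !![1, b; 0, 1] := by
  simp [T, mkUT_val]

theorem T_add (b b' : F) : T (b + b') = T b * T b' := by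
  apply Units.ext
  rw [Units.val_mul, T_val, T_val, T_val]
  ext i j
  fin_cases i <;> fin_cases j <;> simp [Matrix.mul_apply, Fin.sum_univ_two, add_comm]

theorem T_zero : T (0 : F) = 1 := by
  apply Units.ext
  rw [T_val]
  ext i j
  fin_cases i <;> fin_cases j <;> simp

theorem T_injective : Function.Injective (T : F → GL (Fin 2) F) := by
  intro b b' h
  have h1 := congrArg (fun M : GL (Fin 2) F => (M : Matrix (Fin 2) (Fin 2) F) 0 1) h
  simpa [T_val] using h1

theorem T_eq_one_iff (b : F) : T b = 1 ↔ b = 0 := by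
  rw [← T_zero]
  exact T_injective.eq_iff

/-- `b ↦ T b` as a homomorphism. -/
noncomputable def Thom : Multiplicative F →* GL (Fin 2) F where
  toFun b := T b.toAdd
  map_one' := T_zero
  map_mul' b b' := T_add _ _

/-- The upper unitriangular subgroup. -/
noncomputable def U : Subgroup (GL (Fin 2) F) := (Thom (F := F)).range

theorem mem_U {g : GL (Fin 2) F} : g ∈ (U : Subgroup (GL (Fin 2) F)) ↔ ∃ b : F, g = T b := by
  constructor
  · rintro ⟨b, rfl⟩
    exact ⟨b.toAdd, rfl⟩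
  · rintro ⟨b, rfl⟩
    exact ⟨Multiplicative.ofAdd b, rfl⟩

theorem T_mem_U (b : F) : T b ∈ (U : Subgroup (GL (Fin 2) F)) := mem_U.2 ⟨b, rfl⟩

theorem card_U : Nat.card (U : Subgroup (GL (Fin 2) F)) = Nat.card F := by
  have hinj : Function.Injective (Thom (F := F)) := fun b b' h => by
    have := T_injective h
    exact Multiplicative.toAdd.injective this
  rw [U, ← Nat.card_congr (MonoidHom.ofInjective hinj).toEquiv]
  exact Nat.card_congr Multiplicative.toAdd

/-- Entry `(1,1)` of `g * T b = T b' * g`. -/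
theorem entry_of_mul_T {g : GL (Fin 2) F} {b b' : F} (h : g * T b = T b' * g) :
    (g : Matrix (Fin 2) (Fin 2) F) 1 0 * b = 0 := by
  have h1 := congrArg (fun M : GL (Fin 2) F => (M : Matrix (Fin 2) (Fin 2) F) 1 1) h
  simp only [Units.val_mul, T_val, Matrix.mul_apply, Fin.sum_univ_two] at h1
  simpa using h1

/-- Entry `(0,1)` of `g * T b = T b' * g`. -/
theorem entry_of_mul_T' {g : GL (Fin 2) F} {b b' : F} (h : g * T b = T b' * g) :
    (g : Matrix (Fin 2) (Fin 2) F) 0 0 * b + (g : Matrix (Fin 2) (Fin 2) F) 0 1 =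
      (g : Matrix (Fin 2) (Fin 2) F) 0 1 + b' * (g : Matrix (Fin 2) (Fin 2) F) 1 1 := by
  have h1 := congrArg (fun M : GL (Fin 2) F => (M : Matrix (Fin 2) (Fin 2) F) 0 1) h
  simp only [Units.val_mul, T_val, Matrix.mul_apply, Fin.sum_univ_two] at h1
  simpa using h1

theorem mul_T_of {g : GL (Fin 2) F} {b b' : F} (hc : (g : Matrix (Fin 2) (Fin 2) F) 1 0 = 0)
    (h : (g : Matrix (Fin 2) (Fin 2) F) 0 0 * b = b' * (g : Matrix (Fin 2) (Fin 2) F) 1 1) :
    g * T b = T b' * g := by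
  apply Units.ext
  rw [Units.val_mul, Units.val_mul, T_val, T_val]
  ext i j
  fin_cases i <;> fin_cases j <;> simp [Matrix.mul_apply, Fin.sum_univ_two, hc]
  linear_combination h

theorem diag_ne_zero {g : GL (Fin 2) F} (hc : (g : Matrix (Fin 2) (Fin 2) F) 1 0 = 0) :
    (g : Matrix (Fin 2) (Fin 2) F) 0 0 ≠ 0 ∧ (g : Matrix (Fin 2) (Fin 2) F) 1 1 ≠ 0 := by
  have h := Matrix.GeneralLinearGroup.det_ne_zero g
  rw [Matrix.det_fin_two, hc, mul_zero, sub_zero] at h
  exact ⟨left_ne_zero_of_mul h, right_ne_zero_of_mul h⟩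

theorem mem_normalizer_U {g : GL (Fin 2) F} :
    g ∈ Subgroup.normalizer ((U : Subgroup (GL (Fin 2) F)) : Set (GL (Fin 2) F)) ↔
      (g : Matrix (Fin 2) (Fin 2) F) 1 0 = 0 := by
  constructor
  · intro hg
    obtain ⟨b', hb'⟩ := mem_U.1 ((Subgroup.mem_normalizer_iff.1 hg (T 1)).1 (T_mem_U 1))
    have h1 : g * T 1 = T b' * g := mul_inv_eq_iff_eq_mul.1 hb'
    simpa using entry_of_mul_T h1
  · intro hc
    obtain ⟨ha, hd⟩ := diag_ne_zero hc
    rw [Subgroup.mem_normalizer_iff]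
    intro h
    constructor
    · intro hh
      obtain ⟨b, rfl⟩ := mem_U.1 hh
      have h1 : g * T b = T ((g : Matrix (Fin 2) (Fin 2) F) 0 0 * b /
          (g : Matrix (Fin 2) (Fin 2) F) 1 1) * g :=
        mul_T_of hc (div_mul_cancel₀ _ hd).symm
      rw [mul_inv_eq_iff_eq_mul.2 h1]
      exact T_mem_U _
    · intro hh
      obtain ⟨b', hb'⟩ := mem_U.1 hh
      have h1 : g * h = T b' * g := mul_inv_eq_iff_eq_mul.1 hb'
      have h2 : g * T (b' * (g : Matrix (Fin 2) (Fin 2) F) 1 1 /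
          (g : Matrix (Fin 2) (Fin 2) F) 0 0) = T b' * g :=
        mul_T_of hc (mul_div_cancel₀ _ ha)
      have h3 : h = T (b' * (g : Matrix (Fin 2) (Fin 2) F) 1 1 /
          (g : Matrix (Fin 2) (Fin 2) F) 0 0) := mul_left_cancel (h1.trans h2.symm)
      rw [h3]
      exact T_mem_U _

/-- The Borel subgroup is in bijection with `Fˣ × Fˣ × F`. -/
noncomputable def borelEquiv :
    {g : GL (Fin 2) F // (g : Matrix (Fin 2) (Fin 2) F) 1 0 = 0} ≃ Fˣ × Fˣ × F where
  toFun g := (Units.mk0 _ (diag_ne_zero g.2).1, Units.mk0 _ (diag_ne_zero g.2).2,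
    (g.1 : Matrix (Fin 2) (Fin 2) F) 0 1)
  invFun t := ⟨mkUT t.1 t.2.1 t.2.2, by simp [mkUT_val]⟩
  left_inv g := by
    apply Subtype.ext
    apply Units.ext
    rw [mkUT_val]
    ext i j
    fin_cases i <;> fin_cases j <;> simp [g.2]
  right_inv t := by
    obtain ⟨a, d, x⟩ := t
    simp [mkUT_val, Units.ext_iff]

theorem card_normalizer_U [Finite F] :
    Nat.card (Subgroup.normalizer ((U : Subgroup (GL (Fin 2) F)) : Set (GL (Fin 2) F))) =
      Nat.card F * (Nat.card F - 1) ^ 2 := by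
  have e : (Subgroup.normalizer ((U : Subgroup (GL (Fin 2) F)) : Set (GL (Fin 2) F))) ≃
      {g : GL (Fin 2) F // (g : Matrix (Fin 2) (Fin 2) F) 1 0 = 0} :=
    Equiv.subtypeEquivRight (fun g => mem_normalizer_U)
  rw [Nat.card_congr (e.trans borelEquiv), Nat.card_prod, Nat.card_prod, Nat.card_units]
  ring

theorem mem_centralizer_T {g : GL (Fin 2) F} {b : F} (hb : b ≠ 0) :
    g ∈ Subgroup.centralizer ({T b} : Set (GL (Fin 2) F)) ↔
      (g : Matrix (Fin 2) (Fin 2) F) 1 0 = 0 ∧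
        (g : Matrix (Fin 2) (Fin 2) F) 0 0 = (g : Matrix (Fin 2) (Fin 2) F) 1 1 := by
  rw [Subgroup.mem_centralizer_singleton_iff]
  constructor
  · intro h
    have h1 := entry_of_mul_T h
    have h2 := entry_of_mul_T' h
    have hc : (g : Matrix (Fin 2) (Fin 2) F) 1 0 = 0 := by
      rcases mul_eq_zero.1 h1 with h | h
      · exact h
      · exact absurd h hb
    refine ⟨hc, ?_⟩
    have h3 : ((g : Matrix (Fin 2) (Fin 2) F) 0 0 - (g : Matrix (Fin 2) (Fin 2) F) 1 1) * b = 0 := by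
      linear_combination h2
    rcases mul_eq_zero.1 h3 with h | h
    · exact sub_eq_zero.1 h
    · exact absurd h hb
  · rintro ⟨hc, had⟩
    exact mul_T_of hc (by rw [had, mul_comm])

/-- The centraliser of `T b` is in bijection with `Fˣ × F`. -/
noncomputable def centEquiv :
    {g : GL (Fin 2) F // (g : Matrix (Fin 2) (Fin 2) F) 1 0 = 0 ∧
        (g : Matrix (Fin 2) (Fin 2) F) 0 0 = (g : Matrix (Fin 2) (Fin 2) F) 1 1} ≃ Fˣ × F where
  toFun g := (Units.mk0 _ (diag_ne_zero g.2.1).1, (g.1 : Matrix (Fin 2) (Fin 2) F) 0 1)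
  invFun t := ⟨mkUT t.1 t.1 t.2, by simp [mkUT_val]⟩
  left_inv g := by
    apply Subtype.ext
    apply Units.ext
    rw [mkUT_val]
    ext i j
    fin_cases i <;> fin_cases j <;> simp [g.2.1, g.2.2]
  right_inv t := by
    obtain ⟨a, x⟩ := t
    simp [mkUT_val, Units.ext_iff]

theorem card_centralizer_T [Finite F] {b : F} (hb : b ≠ 0) :
    Nat.card (Subgroup.centralizer ({T b} : Set (GL (Fin 2) F))) =
      Nat.card F * (Nat.card F - 1) := by
  have e : (Subgroup.centralizer ({T b} : Set (GL (Fin 2) F))) ≃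
      {g : GL (Fin 2) F // (g : Matrix (Fin 2) (Fin 2) F) 1 0 = 0 ∧
        (g : Matrix (Fin 2) (Fin 2) F) 0 0 = (g : Matrix (Fin 2) (Fin 2) F) 1 1} :=
    Equiv.subtypeEquivRight (fun g => mem_centralizer_T hb)
  rw [Nat.card_congr (e.trans centEquiv), Nat.card_prod, Nat.card_units]
  ring

theorem card_centralizer_conj {G : Type*} [Group G] (a g : G) :
    Nat.card (Subgroup.centralizer ({g⁻¹ * a * g} : Set G)) =
      Nat.card (Subgroup.centralizer ({a} : Set G)) := by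
  refine Nat.card_congr ((MulAut.conj g).toEquiv.subtypeEquiv fun x => ?_)
  rw [Subgroup.mem_centralizer_singleton_iff, Subgroup.mem_centralizer_singleton_iff]
  show _ ↔ g * x * g⁻¹ * a = a * (g * x * g⁻¹)
  constructor
  · intro h
    calc g * x * g⁻¹ * a = g * (x * (g⁻¹ * a * g)) * g⁻¹ := by group
      _ = g * ((g⁻¹ * a * g) * x) * g⁻¹ := by rw [h]
      _ = a * (g * x * g⁻¹) := by group
  · intro h
    calc x * (g⁻¹ * a * g) = g⁻¹ * ((g * x * g⁻¹) * a) * g := by group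
      _ = g⁻¹ * (a * (g * x * g⁻¹)) * g := by rw [h]
      _ = g⁻¹ * a * g * x := by group

section sylow

variable [Fintype F] (p : ℕ) [Fact p.Prime] [CharP F p]

/-- `U` is a Sylow `p`-subgroup of `GL_2(F)`. -/
theorem exists_sylow_U :
    ∃ P : Sylow p (GL (Fin 2) F), (P : Subgroup (GL (Fin 2) F)) = U := by
  have h0 := Cfsg.Agent.S0263.result (F := F) rfl p 2 (default : Sylow p (GL (Fin 2) F))
  have h1 := Sylow.card_eq_multiplicity (default : Sylow p (GL (Fin 2) F))
  have h2 : Nat.card (U : Subgroup (GL (Fin 2) F)) =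
      p ^ (Nat.card (GL (Fin 2) F)).factorization p := by
    rw [card_U, ← h1, h0, Nat.card_eq_fintype_card]
    norm_num
  exact ⟨Sylow.ofCard U h2, Sylow.coe_ofCard U h2⟩

/-- Every Sylow `p`-subgroup is a conjugate of `U`. -/
theorem exists_conj (P : Sylow p (GL (Fin 2) F)) :
    ∃ g : GL (Fin 2) F, ∀ x, x ∈ (P : Subgroup (GL (Fin 2) F)) ↔ ∃ b : F, g⁻¹ * x * g = T b := by
  obtain ⟨PU, hPU⟩ := exists_sylow_U (F := F) p
  obtain ⟨g, hg⟩ := MulAction.exists_smul_eq (GL (Fin 2) F) PU P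
  refine ⟨g, fun x => ?_⟩
  rw [← hg, Cfsg.Agent.Helper4.mem_smul_sylow_iff, hPU, mem_U]

/-- Two Sylow subgroups `g U g⁻¹`, `h U h⁻¹` with `h⁻¹ g` upper triangular coincide. -/
theorem eq_of_conj {P Q : Sylow p (GL (Fin 2) F)} {g h : GL (Fin 2) F}
    (hP : ∀ x, x ∈ (P : Subgroup (GL (Fin 2) F)) ↔ ∃ b : F, g⁻¹ * x * g = T b)
    (hQ : ∀ x, x ∈ (Q : Subgroup (GL (Fin 2) F)) ↔ ∃ b : F, h⁻¹ * x * h = T b)
    (hk : ((h⁻¹ * g : GL (Fin 2) F) : Matrix (Fin 2) (Fin 2) F) 1 0 = 0) : P = Q := by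
  have hN := mem_normalizer_U.2 hk
  apply Sylow.ext
  ext x
  rw [hP, hQ, ← mem_U, ← mem_U, Subgroup.mem_normalizer_iff.1 hN (g⁻¹ * x * g)]
  have e : h⁻¹ * g * (g⁻¹ * x * g) * (h⁻¹ * g)⁻¹ = h⁻¹ * x * h := by group
  rw [e]

end sylow

end Cfsg.Agent.Helper4.GL2
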