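import Mathlib
import Cfsg.Agent.Helper4.GL2

/-! Conjugacy classes of `2 × 2` matrices via companion matrices. -/

set_option autoImplicit false

namespace Cfsg.Agent.Helper4.Conj2

open Matrix Cfsg.Agent.Helper4.GL2

variable {F : Type*} [Field F]

/-- The companion matrix with trace `t` and determinant `d`. -/
noncomputable def comp (t : F) (d : Fˣ) : GL (Fin 2) F :=
  Matrix.GeneralLinearGroup.mkOfDetNeZero !![0, -(d : F); 1, t] (by simp [Matrix.det_fin_two])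

theorem comp_val (t : F) (d : Fˣ) :
    ((comp t d : GL (Fin 2) F) : Matrix (Fin 2) (Fin 2) F) = !![0, -(d : F); 1, t] := rfl

theorem mat_eq (a b c e v1 v2 : F) :
    (!![a, b; c, e] : Matrix (Fin 2) (Fin 2) F) * !![v1, a * v1 + b * v2; v2, c * v1 + e * v2] =
      !![v1, a * v1 + b * v2; v2, c * v1 + e * v2] * !![0, -(a * e - b * c); 1, a + e] := by
  ext i j
  fin_cases i <;> fin_cases j <;> simp [Matrix.mul_apply, Fin.sum_univ_two] <;> ring

theorem det_coe (g : GL (Fin 2) F) :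
    ((Matrix.GeneralLinearGroup.det g : Fˣ) : F) =
      (g : Matrix (Fin 2) (Fin 2) F) 0 0 * (g : Matrix (Fin 2) (Fin 2) F) 1 1 -
        (g : Matrix (Fin 2) (Fin 2) F) 0 1 * (g : Matrix (Fin 2) (Fin 2) F) 1 0 := by
  rw [← Matrix.det_fin_two]
  rfl

theorem trace_conj {g h : GL (Fin 2) F} (hc : IsConj g h) :
    (g : Matrix (Fin 2) (Fin 2) F) 0 0 + (g : Matrix (Fin 2) (Fin 2) F) 1 1 =
      (h : Matrix (Fin 2) (Fin 2) F) 0 0 + (h : Matrix (Fin 2) (Fin 2) F) 1 1 := by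
  obtain ⟨c, hc⟩ := isConj_iff.1 hc
  have h1 : Matrix.trace (h : Matrix (Fin 2) (Fin 2) F) =
      Matrix.trace (g : Matrix (Fin 2) (Fin 2) F) := by
    rw [← hc, Units.val_mul, Units.val_mul, Matrix.trace_mul_comm, ← Matrix.mul_assoc,
      ← Units.val_mul, inv_mul_cancel, Units.val_one, Matrix.one_mul]
  rw [Matrix.trace_fin_two, Matrix.trace_fin_two] at h1
  exact h1.symm

theorem det_conj {g h : GL (Fin 2) F} (hc : IsConj g h) :
    Matrix.GeneralLinearGroup.det g = Matrix.GeneralLinearGroup.det h := by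
  obtain ⟨c, hc⟩ := isConj_iff.1 hc
  rw [← hc, map_mul, map_mul, map_inv, mul_comm, ← mul_assoc, inv_mul_cancel, one_mul]

/-- A non-scalar matrix admits a cyclic vector. -/
theorem exists_cyclic (a b c e : F) (hns : ¬ (b = 0 ∧ c = 0 ∧ a = e)) :
    ∃ v1 v2 : F, v1 * (c * v1 + e * v2) - (a * v1 + b * v2) * v2 ≠ 0 := by
  by_cases hc : c = 0
  · by_cases hb : b = 0
    · refine ⟨1, 1, ?_⟩
      have hae : a ≠ e := fun h => hns ⟨hb, hc, h⟩
      rw [hc, hb]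
      intro h0
      apply hae
      linear_combination (-1 : F) * h0
    · refine ⟨0, 1, ?_⟩
      simpa using hb
  · refine ⟨1, 0, ?_⟩
    simpa using hc

theorem conj_comp (g : GL (Fin 2) F)
    (hns : ¬ ((g : Matrix (Fin 2) (Fin 2) F) 0 1 = 0 ∧ (g : Matrix (Fin 2) (Fin 2) F) 1 0 = 0 ∧
      (g : Matrix (Fin 2) (Fin 2) F) 0 0 = (g : Matrix (Fin 2) (Fin 2) F) 1 1)) :
    IsConj g (comp ((g : Matrix (Fin 2) (Fin 2) F) 0 0 + (g : Matrix (Fin 2) (Fin 2) F) 1 1)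
      (Matrix.GeneralLinearGroup.det g)) := by
  obtain ⟨v1, v2, hv⟩ := exists_cyclic _ _ _ _ hns
  rw [isConj_iff]
  have hP : g * Matrix.GeneralLinearGroup.mkOfDetNeZero
      !![v1, (g : Matrix (Fin 2) (Fin 2) F) 0 0 * v1 + (g : Matrix (Fin 2) (Fin 2) F) 0 1 * v2;
         v2, (g : Matrix (Fin 2) (Fin 2) F) 1 0 * v1 + (g : Matrix (Fin 2) (Fin 2) F) 1 1 * v2]
      (by rw [Matrix.det_fin_two_of]; exact hv) =
      Matrix.GeneralLinearGroup.mkOfDetNeZero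
      !![v1, (g : Matrix (Fin 2) (Fin 2) F) 0 0 * v1 + (g : Matrix (Fin 2) (Fin 2) F) 0 1 * v2;
         v2, (g : Matrix (Fin 2) (Fin 2) F) 1 0 * v1 + (g : Matrix (Fin 2) (Fin 2) F) 1 1 * v2]
      (by rw [Matrix.det_fin_two_of]; exact hv) *
      comp ((g : Matrix (Fin 2) (Fin 2) F) 0 0 + (g : Matrix (Fin 2) (Fin 2) F) 1 1)
        (Matrix.GeneralLinearGroup.det g) := by
    apply Units.ext
    have h1 := mat_eq ((g : Matrix (Fin 2) (Fin 2) F) 0 0) ((g : Matrix (Fin 2) (Fin 2) F) 0 1)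
      ((g : Matrix (Fin 2) (Fin 2) F) 1 0) ((g : Matrix (Fin 2) (Fin 2) F) 1 1) v1 v2
    rw [← Matrix.eta_fin_two (g : Matrix (Fin 2) (Fin 2) F), ← det_coe g] at h1
    exact h1
  refine ⟨(Matrix.GeneralLinearGroup.mkOfDetNeZero
      !![v1, (g : Matrix (Fin 2) (Fin 2) F) 0 0 * v1 + (g : Matrix (Fin 2) (Fin 2) F) 0 1 * v2;
         v2, (g : Matrix (Fin 2) (Fin 2) F) 1 0 * v1 + (g : Matrix (Fin 2) (Fin 2) F) 1 1 * v2]
      (by rw [Matrix.det_fin_two_of]; exact hv))⁻¹, ?_⟩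
  rw [inv_inv, mul_assoc, hP, inv_mul_cancel_left]

theorem scalar_conj {a : Fˣ} {h : GL (Fin 2) F} (hc : IsConj (mkUT a a 0) h) : h = mkUT a a 0 := by
  obtain ⟨c, hc⟩ := isConj_iff.1 hc
  have hcomm : c * mkUT a a 0 = mkUT a a 0 * c := by
    apply Units.ext
    rw [Units.val_mul, Units.val_mul, mkUT_val]
    ext i j
    fin_cases i <;> fin_cases j <;> simp [Matrix.mul_apply, Fin.sum_univ_two, mul_comm]
  rw [← hc, hcomm, mul_inv_cancel_right]

end Cfsg.Agent.Helper4.Conj2
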