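import Mathlib

set_option autoImplicit false

namespace Cfsg.Agent.Helper4

/-- An automorphism-like conjugation by an involution `e` acting fixed-point-freely on a finite
normal subgroup `N` inverts `N`. -/
theorem conj_eq_inv_of_fpf {H : Type*} [Group H] [Finite H] (N : Subgroup H) [N.Normal] (e : H)
    (he : e * e = 1) (hfix : N ⊓ Subgroup.centralizer ({e} : Set H) = ⊥) (x : H) (hx : x ∈ N) :
    e * x * e⁻¹ = x⁻¹ := by
  have hmem : ∀ v : N, (v : H)⁻¹ * (e * (v : H) * e⁻¹) ∈ N := fun v =>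
    N.mul_mem (N.inv_mem v.2) (‹N.Normal›.conj_mem _ v.2 _)
  let f : N → N := fun v => ⟨(v : H)⁻¹ * (e * (v : H) * e⁻¹), hmem v⟩
  have hinj : Function.Injective f := by
    intro v w hvw
    have h1 : (v : H)⁻¹ * (e * (v : H) * e⁻¹) = (w : H)⁻¹ * (e * (w : H) * e⁻¹) :=
      congrArg Subtype.val hvw
    have h2 : (w : H) * (v : H)⁻¹ ∈ N ⊓ Subgroup.centralizer ({e} : Set H) := by
      refine Subgroup.mem_inf.mpr ⟨N.mul_mem w.2 (N.inv_mem v.2), ?_⟩
      rw [Subgroup.mem_centralizer_singleton_iff]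
      have h3 : (w : H) * (v : H)⁻¹ * e * (v : H) = e * (w : H) := by
        have := congrArg (fun t => (w : H) * t * e) h1
        simpa [mul_assoc] using this
      calc (w : H) * (v : H)⁻¹ * e = (w : H) * (v : H)⁻¹ * e * (v : H) * (v : H)⁻¹ := by group
        _ = e * (w : H) * (v : H)⁻¹ := by rw [h3]
        _ = e * ((w : H) * (v : H)⁻¹) := by group
    rw [hfix, Subgroup.mem_bot] at h2
    apply Subtype.ext
    have : (w : H) = v := by
      have := congrArg (fun t => t * (v : H)) h2
      simpa [mul_assoc] using this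
    exact this.symm
  obtain ⟨v, hv⟩ := (Finite.injective_iff_surjective.mp hinj) ⟨x, hx⟩
  have hv' : (v : H)⁻¹ * (e * (v : H) * e⁻¹) = x := congrArg Subtype.val hv
  have he' : e⁻¹ = e := inv_eq_of_mul_eq_one_left he
  rw [← hv', he']
  calc e * ((v : H)⁻¹ * (e * (v : H) * e)) * e = e * (v : H)⁻¹ * e * (v : H) * (e * e) := by group
    _ = e * (v : H)⁻¹ * e * (v : H) := by rw [he, mul_one]
    _ = ((v : H)⁻¹ * (e * (v : H) * e))⁻¹ := by
      rw [mul_inv_rev, mul_inv_rev, mul_inv_rev, inv_inv, he']; group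

/-- The core of criterion 19: under the hypotheses, every proper normal subgroup is trivial. -/
theorem crit19_normal_eq_bot {H : Type*} [Group H] [Finite H] (z : H) (hz : orderOf z = 2)
    (hN : ∀ N : Subgroup H, N.Normal → N ≠ ⊤ → N ⊓ Subgroup.centralizer ({z} : Set H) = ⊥)
    (E : Subgroup H) (hE : IsKleinFour ↥E) (hzE : z ∈ E) (hc : ∀ e ∈ E, e ≠ 1 → IsConj z e)
    (N : Subgroup H) (hNn : N.Normal) (hNt : N ≠ ⊤) : N = ⊥ := by
  have hz1 : z ≠ 1 := by
    intro h; rw [h, orderOf_one] at hz; omega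
  -- every nonidentity element of E acts fixed-point-freely on N
  have hfix : ∀ e ∈ E, e ≠ 1 → N ⊓ Subgroup.centralizer ({e} : Set H) = ⊥ := by
    intro e he he1
    obtain ⟨c, hc'⟩ := isConj_iff.mp (hc e he he1)
    rw [eq_bot_iff]
    intro n hn
    rw [Subgroup.mem_bot]
    have h1 : c⁻¹ * n * c ∈ N ⊓ Subgroup.centralizer ({z} : Set H) := by
      have hn' := Subgroup.mem_inf.mp hn
      refine Subgroup.mem_inf.mpr ⟨?_, ?_⟩
      · have := hNn.conj_mem n hn'.1 c⁻¹
        simpa using this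
      · rw [Subgroup.mem_centralizer_singleton_iff]
        have h2 : n * e = e * n := Subgroup.mem_centralizer_singleton_iff.mp hn'.2
        calc c⁻¹ * n * c * z = c⁻¹ * (n * (c * z * c⁻¹)) * c := by group
          _ = c⁻¹ * (n * e) * c := by rw [hc']
          _ = c⁻¹ * (e * n) * c := by rw [h2]
          _ = c⁻¹ * ((c * z * c⁻¹) * n) * c := by rw [hc']
          _ = z * (c⁻¹ * n * c) := by group
    rw [hN N hNn hNt, Subgroup.mem_bot] at h1
    have := congrArg (fun t => c * t * c⁻¹) h1
    simpa [mul_assoc] using this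
  have hsq : ∀ e ∈ E, e * e = 1 := by
    intro e he
    have := IsKleinFour.mul_self (⟨e, he⟩ : E)
    exact congrArg Subtype.val this
  -- there is e ∈ E with e ≠ 1 and e ≠ z
  have hex : ∃ e ∈ E, e ≠ 1 ∧ e ≠ z := by
    by_contra hcon
    push Not at hcon
    have hsub : (E : Set H) ⊆ {1, z} := by
      intro e he
      by_cases h1 : e = 1
      · simp [h1]
      · simp [hcon e he h1]
    have h4 : Nat.card E = 4 := hE.card_four
    have h5 : Nat.card E ≤ 2 := by
      have : Nat.card (E : Set H) = (E : Set H).ncard := Nat.card_coe_set_eq _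
      have h6 := Set.ncard_le_ncard hsub (Set.toFinite _)
      have h7 : ({1, z} : Set H).ncard ≤ 2 := (Set.ncard_insert_le 1 {z}).trans (by simp)
      have h8 : Nat.card E = (E : Set H).ncard := this
      omega
    omega
  obtain ⟨e, he, he1, hez⟩ := hex
  have hze : z * e ∈ E := E.mul_mem hzE he
  have hze1 : z * e ≠ 1 := by
    intro h
    have hzz := hsq z hzE
    have : e = z := by
      have h' : z * e = z * z := by rw [h, hzz]
      exact (mul_left_cancel h').symm ▸ rfl
    exact hez this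
  rw [eq_bot_iff]
  intro x hx
  rw [Subgroup.mem_bot]
  have h1 := conj_eq_inv_of_fpf N e (hsq e he) (hfix e he he1) x hx
  have h2 := conj_eq_inv_of_fpf N z (hsq z hzE) (hfix z hzE hz1) x⁻¹ (N.inv_mem hx)
  have h3 : x ∈ N ⊓ Subgroup.centralizer ({z * e} : Set H) := by
    refine Subgroup.mem_inf.mpr ⟨hx, ?_⟩
    rw [Subgroup.mem_centralizer_singleton_iff]
    have : z * e * x * (z * e)⁻¹ = x := by
      calc z * e * x * (z * e)⁻¹ = z * (e * x * e⁻¹) * z⁻¹ := by group
        _ = z * x⁻¹ * z⁻¹ := by rw [h1]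
        _ = x := by rw [h2, inv_inv]
    calc x * (z * e) = (z * e * x * (z * e)⁻¹) * (z * e) := by rw [this]
      _ = z * e * x := by group
  rw [hfix (z * e) hze hze1, Subgroup.mem_bot] at h3
  exact h3

end Cfsg.Agent.Helper4
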