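import Mathlib

set_option autoImplicit false

namespace Cfsg.Agent.Helper4

/-- Two subgroups commuting elementwise and meeting trivially generate their direct product. -/
theorem nonempty_prod_mulEquiv_sup {G : Type*} [Group G] (A B : Subgroup G)
    (hc : ∀ a ∈ A, ∀ b ∈ B, a * b = b * a) (hd : A ⊓ B = ⊥) :
    Nonempty (↥A × ↥B ≃* ↥(A ⊔ B)) := by
  have comm : ∀ (a : ↥A) (b : ↥B), Commute (A.subtype a) (B.subtype b) :=
    fun a b => hc a a.2 b b.2
  have hinj : Function.Injective (MonoidHom.noncommCoprod A.subtype B.subtype comm) := by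
    rw [MonoidHom.noncommCoprod_injective]
    refine ⟨A.subtype_injective, B.subtype_injective, ?_⟩
    rw [Subgroup.range_subtype, Subgroup.range_subtype, disjoint_iff, hd]
  have hrange : (MonoidHom.noncommCoprod A.subtype B.subtype comm).range = A ⊔ B := by
    rw [MonoidHom.noncommCoprod_range, Subgroup.range_subtype, Subgroup.range_subtype]
  exact ⟨(MonoidHom.ofInjective hinj).trans (MulEquiv.subgroupCongr hrange)⟩

/-- `T^k × T ≃* T^(k+1)`. -/
theorem nonempty_snoc_mulEquiv (T : Type*) [Group T] (k : ℕ) :
    Nonempty (((Fin k → T) × T) ≃* (Fin (k + 1) → T)) :=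
  ⟨{ toFun := fun q => Fin.snoc (α := fun _ => T) q.1 q.2
     invFun := fun f => (Fin.init f, f (Fin.last k))
     left_inv := fun q => by
       apply Prod.ext
       · exact Fin.init_snoc (α := fun _ => T) q.2 q.1
       · exact Fin.snoc_last (α := fun _ => T) q.2 q.1
     right_inv := fun f => Fin.snoc_init_self (α := fun _ => T) f
     map_mul' := fun q r => by
       funext i
       refine Fin.lastCases ?_ (fun j => ?_) i
       · simp
       · simp }⟩

end Cfsg.Agent.Helper4
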