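import Mathlib
import Cfsg.Agent.S0029
import Cfsg.Agent.Lead.PGroupFrattini
import Cfsg.Agent.Helper5.Frattini
import Cfsg.Agent.Helper5.Stability

set_option autoImplicit false

namespace Cfsg.Agent.Helper4

open scoped commutatorElement

/-- A homomorphism into a finite `p`-group maps the Frattini subgroup into the Frattini subgroup. -/
theorem frattini_map_mem {A B : Type*} [Group A] [Finite A] [Group B] [Finite B] (p : ℕ)
    [Fact p.Prime] (hB : IsPGroup p B) (f : A →* B) : ∀ y ∈ frattini A, f y ∈ frattini B := by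
  have hpp : p.Prime := Fact.out
  have h1 : frattini A ≤ (frattini B).comap f := by
    apply Helper5.frattini_le_of_elementary_quotient hpp
    · intro a b
      rw [Subgroup.mem_comap]
      apply Lead.commutator_le_frattini_of_isPGroup p hB
      have h2 : f (a * b * a⁻¹ * b⁻¹) = ⁅f a, f b⁆ := by
        rw [commutatorElement_def, map_mul, map_mul, map_mul, map_inv, map_inv]
      rw [h2]
      exact Subgroup.commutator_mem_commutator (Subgroup.mem_top _) (Subgroup.mem_top _)
    · intro a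
      rw [Subgroup.mem_comap, map_pow]
      exact Lead.pow_mem_frattini_of_isPGroup p hB (f a)
  intro y hy
  exact h1 hy

/-- The subgroup of elements acting trivially on `R / Φ(R)`. -/
def fratStab {G : Type*} [Group G] (R : Subgroup G) (hRn : R.Normal)
    (F : Subgroup G) (hFn : F.Normal) : Subgroup G where
  carrier := {h | ∀ r ∈ R, h * r * h⁻¹ * r⁻¹ ∈ F}
  one_mem' := by
    intro r _
    have h1 : (1 : G) * r * 1⁻¹ * r⁻¹ = 1 := by group
    rw [h1]; exact F.one_mem
  mul_mem' := by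
    intro a b ha hb r hr
    have h1 := hb r hr
    have h2 := ha r hr
    have h3 : a * b * r * (a * b)⁻¹ * r⁻¹ = (a * (b * r * b⁻¹ * r⁻¹) * a⁻¹) * (a * r * a⁻¹ * r⁻¹) := by
      group
    rw [h3]
    exact F.mul_mem (hFn.conj_mem _ h1 a) h2
  inv_mem' := by
    intro a ha r hr
    have h1 := ha r hr
    have h2 := hFn.conj_mem _ (F.inv_mem h1) a⁻¹
    have h3 : a⁻¹ * (a * r * a⁻¹ * r⁻¹)⁻¹ * a⁻¹⁻¹ = a⁻¹ * r * a⁻¹⁻¹ * r⁻¹ := by group
    rwa [h3] at h2

theorem mem_fratStab {G : Type*} [Group G] (R : Subgroup G) (hRn : R.Normal)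
    (F : Subgroup G) (hFn : F.Normal) (h : G) :
    h ∈ fratStab R hRn F hFn ↔ ∀ r ∈ R, h * r * h⁻¹ * r⁻¹ ∈ F := Iff.rfl

theorem fratStab_normal {G : Type*} [Group G] (R : Subgroup G) (hRn : R.Normal)
    (F : Subgroup G) (hFn : F.Normal) : (fratStab R hRn F hFn).Normal := by
  constructor
  intro h hh y r hr
  have h1 := hh (y⁻¹ * r * y⁻¹⁻¹) (hRn.conj_mem r hr y⁻¹)
  have h2 := hFn.conj_mem _ h1 y
  have h3 : y * (h * (y⁻¹ * r * y⁻¹⁻¹) * h⁻¹ * (y⁻¹ * r * y⁻¹⁻¹)⁻¹) * y⁻¹ =
      y * h * y⁻¹ * r * (y * h * y⁻¹)⁻¹ * r⁻¹ := by group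
  rwa [h3] at h2

/-- Burnside + Hall–Higman: if `R` is a normal `p`-subgroup containing its centralizer, then the
elements acting trivially on `R / Φ(R)` form a `p`-group. -/
theorem fratStab_isPGroup {G : Type*} [Group G] [Finite G] {p : ℕ} [Fact p.Prime]
    (R : Subgroup G) (hRn : R.Normal) (hRp : IsPGroup p R)
    (hRC : Subgroup.centralizer (R : Set G) ≤ R)
    (hFn : ((frattini ↥R).map R.subtype).Normal) :
    IsPGroup p (fratStab R hRn ((frattini ↥R).map R.subtype) hFn) := by
  have hpp : p.Prime := Fact.out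
  apply Helper5.isPGroup_of_coprime_elements_trivial
  intro y hy hycop
  have hAK : Subgroup.zpowers y ≤ Subgroup.normalizer (R : Set G) := by
    rw [Subgroup.normalizer_eq_top_iff.mpr hRn]; exact le_top
  have hcop : (Nat.card (Subgroup.zpowers y)).Coprime (Nat.card (frattini ↥R)) := by
    rw [Nat.card_zpowers]
    obtain ⟨k, hk⟩ := IsPGroup.iff_card.mp hRp
    have h1 : Nat.card (frattini ↥R) ∣ p ^ k := by
      rw [← hk]; exact Subgroup.card_subgroup_dvd_card _
    obtain ⟨j, _, hj⟩ := (Nat.dvd_prime_pow hpp).mp h1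
    rw [hj]
    exact Nat.Coprime.pow_right j hycop
  have htriv : ∀ a ∈ Subgroup.zpowers y, ∀ k ∈ R,
      a * k * a⁻¹ * k⁻¹ ∈ (frattini ↥R).map R.subtype := by
    intro a ha k hk
    have h1 : Subgroup.zpowers y ≤ fratStab R hRn ((frattini ↥R).map R.subtype) hFn := by
      rw [Subgroup.zpowers_le]; exact hy
    exact h1 ha k hk
  have h2 := Cfsg.Agent.S0029.result (Subgroup.zpowers y) R hAK hcop htriv
  have h3 : y ∈ R := hRC (h2 (Subgroup.mem_zpowers y))
  exact Helper5.eq_one_of_pow_coprime R hRp _ hycop y h3 (pow_orderOf_eq_one y)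

end Cfsg.Agent.Helper4
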