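import Mathlib
import Cfsg.Prelude.Def_Solvable
import Cfsg.Agent.Helper8.GroupFusion

set_option autoImplicit false

namespace Cfsg.Agent.Helper4

open scoped Pointwise

/-- The elements outside the Frobenius kernel `N` are uniquely `n h n⁻¹` with `n ∈ N`,
`1 ≠ h ∈ H`. -/
theorem frob_decomp {F : Type*} [Group F] (H N : Subgroup F)
    (hH : Cfsg.IsFrobeniusComplement H) (hNK : (N : Set F) = Cfsg.frobeniusKernel H)
    (hNn : N.Normal) (hcompl : Subgroup.IsComplement' N H) :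
    (∀ n ∈ N, ∀ h ∈ H, h ≠ 1 → n * h * n⁻¹ ∉ N) ∧
    (∀ n ∈ N, ∀ h ∈ H, ∀ n' ∈ N, ∀ h' ∈ H, h ≠ 1 → n * h * n⁻¹ = n' * h' * n'⁻¹ → n = n' ∧ h = h') ∧
    (∀ x : F, x ∉ N → ∃ n ∈ N, ∃ h ∈ H, h ≠ 1 ∧ x = n * h * n⁻¹) := by
  have hdisj : N ⊓ H = ⊥ := hcompl.disjoint.eq_bot
  have hsup : N ⊔ H = ⊤ := hcompl.sup_eq_top
  refine ⟨?_, ?_, ?_⟩
  · intro n hn h hh hne hmem
    have h1 : n⁻¹ * (n * h * n⁻¹) * n⁻¹⁻¹ ∈ N := hNn.conj_mem _ hmem n⁻¹
    have h2 : n⁻¹ * (n * h * n⁻¹) * n⁻¹⁻¹ = h := by group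
    rw [h2] at h1
    have h3 : h ∈ N ⊓ H := ⟨h1, hh⟩
    rw [hdisj] at h3
    exact hne (Subgroup.mem_bot.mp h3)
  · intro n hn h hh n' hn' h' hh' hne heq
    have h1 : h = (n⁻¹ * n') * h' * (n⁻¹ * n')⁻¹ := by
      have h0 : h = n⁻¹ * (n * h * n⁻¹) * n := by group
      rw [h0, heq]; group
    have hg : n⁻¹ * n' ∈ H := by
      by_contra hg
      have h2 := hH.2.2 _ hg
      have h3 : h ∈ H ⊓ MulAut.conj (n⁻¹ * n') • H := by
        refine ⟨hh, ?_⟩
        rw [h1]
        have h4 : MulAut.conj (n⁻¹ * n') • h' ∈ MulAut.conj (n⁻¹ * n') • H :=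
          Subgroup.smul_mem_pointwise_smul h' _ H hh'
        rwa [MulAut.smul_def, MulAut.conj_apply] at h4
      rw [h2] at h3
      exact hne (Subgroup.mem_bot.mp h3)
    have hg2 : n⁻¹ * n' ∈ N ⊓ H := ⟨N.mul_mem (N.inv_mem hn) hn', hg⟩
    rw [hdisj] at hg2
    have hg3 : n⁻¹ * n' = 1 := Subgroup.mem_bot.mp hg2
    have hnn : n = n' := by
      have h0 : n' = n * (n⁻¹ * n') := by group
      rw [h0, hg3, mul_one]
    refine ⟨hnn, ?_⟩
    rw [h1, hg3]; group
  · intro x hx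
    have hxK : x ∉ Cfsg.frobeniusKernel H := by
      rw [← hNK]; exact hx
    have h1 : x ≠ 1 ∧ ∃ g : F, x ∈ MulAut.conj g • H := by
      by_contra hcon
      apply hxK
      by_cases hx1 : x = 1
      · exact Or.inl hx1
      · right
        intro g hg
        exact hcon ⟨hx1, g, hg⟩
    obtain ⟨hx1, g, hg⟩ := h1
    have hHN : H ≤ Subgroup.normalizer (N : Set F) := by
      rw [Subgroup.normalizer_eq_top_iff.mpr hNn]; exact le_top
    have hg' : g⁻¹ ∈ H ⊔ N := by
      rw [sup_comm, hsup]; exact Subgroup.mem_top _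
    obtain ⟨h₁, hh₁, n₁, hn₁, hgeq⟩ := Helper8.mem_sup_of_le_normalizer hHN hg'
    obtain ⟨h, hh, hxh⟩ := (Subgroup.mem_smul_pointwise_iff_exists x (MulAut.conj g) H).mp hg
    rw [MulAut.smul_def, MulAut.conj_apply] at hxh
    have hgeq' : g = n₁⁻¹ * h₁⁻¹ := by
      have h0 : g = (g⁻¹)⁻¹ := by group
      rw [h0, hgeq]; group
    refine ⟨n₁⁻¹, N.inv_mem hn₁, h₁⁻¹ * h * h₁, H.mul_mem (H.mul_mem (H.inv_mem hh₁) hh) hh₁, ?_, ?_⟩
    · intro h1
      apply hx1
      rw [← hxh]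
      have h2 : h = h₁ * (h₁⁻¹ * h * h₁) * h₁⁻¹ := by group
      rw [h2, h1]; group
    · rw [← hxh, hgeq']; group

/-- Averaging over a Frobenius group acting on an abelian group: if neither the kernel nor the
complement has nontrivial fixed points and the order of `V` is prime to that of the kernel, then
`V` is trivial. -/
theorem frob_fixed_trivial {F : Type*} [Group F] [Finite F] {V : Type*} [CommGroup V] [Finite V]
    (c : F →* MulAut V) (H N : Subgroup F) (hH : Cfsg.IsFrobeniusComplement H)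
    (hNK : (N : Set F) = Cfsg.frobeniusKernel H) (hNn : N.Normal)
    (hcompl : Subgroup.IsComplement' N H) (hcop : (Nat.card V).Coprime (Nat.card N))
    (hfixN : ∀ v : V, (∀ n ∈ N, c n v = v) → v = 1)
    (hfixH : ∀ v : V, (∀ h ∈ H, c h v = v) → v = 1) : ∀ v : V, v = 1 := by
  classical
  letI : Fintype F := Fintype.ofFinite F
  obtain ⟨hd1, hd2, hd3⟩ := frob_decomp H N hH hNK hNn hcompl
  -- norms over subgroups are fixed
  have hfix : ∀ (X : Subgroup F) (v : V), ∀ y ∈ X,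
      c y (∏ x : X, c (x : F) v) = ∏ x : X, c (x : F) v := by
    intro X v y hy
    rw [map_prod]
    have h1 : ∀ x : X, c y (c (x : F) v) = c (((⟨y, hy⟩ : X) * x : X) : F) v := by
      intro x
      rw [Subgroup.coe_mul, map_mul, MulAut.mul_apply]
    simp_rw [h1]
    exact Fintype.prod_equiv (Equiv.mulLeft (⟨y, hy⟩ : X)) _ _ (fun x => rfl)
  have hTN : ∀ v : V, ∏ x : N, c (x : F) v = 1 := fun v => hfixN _ (hfix N v)
  have hTH : ∀ v : V, ∏ x : H, c (x : F) v = 1 := fun v => hfixH _ (hfix H v)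
  have hTF : ∀ v : V, ∏ x : F, c x v = 1 := by
    intro v
    apply hfixN
    intro n _
    rw [map_prod]
    have h1 : ∀ x : F, c n (c x v) = c (n * x) v := by
      intro x
      rw [map_mul, MulAut.mul_apply]
    simp_rw [h1]
    exact Fintype.prod_equiv (Equiv.mulLeft n) _ _ (fun x => rfl)
  intro v
  -- split the product over F
  have hsplit : (∏ x : F, c x v) =
      (∏ x ∈ Finset.univ.filter (fun x : F => x ∈ N), c x v) *
      (∏ x ∈ Finset.univ.filter (fun x : F => x ∉ N), c x v) :=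
    (Finset.prod_filter_mul_prod_filter_not Finset.univ (fun x : F => x ∈ N) (fun x => c x v)).symm
  have hfirst : (∏ x ∈ Finset.univ.filter (fun x : F => x ∈ N), c x v) = 1 := by
    rw [← hTN v]
    exact (Finset.prod_subtype (Finset.univ.filter (fun x : F => x ∈ N))
      (fun x => by simp) (fun x => c x v))
  have hsecond : (∏ x ∈ Finset.univ.filter (fun x : F => x ∉ N), c x v) =
      ∏ n : N, ∏ h ∈ (Finset.univ : Finset H).erase 1, c ((n : F) * (h : F) * (n : F)⁻¹) v := by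
    rw [← Finset.prod_product']
    symm
    apply Finset.prod_bij (fun (a : N × H) _ => (a.1 : F) * (a.2 : F) * (a.1 : F)⁻¹)
    · intro a ha
      rw [Finset.mem_product] at ha
      have hne : (a.2 : F) ≠ 1 := by
        intro h0
        exact (Finset.mem_erase.mp ha.2).1 (Subtype.ext h0)
      simp only [Finset.mem_filter, Finset.mem_univ, true_and]
      exact hd1 _ a.1.2 _ a.2.2 hne
    · intro a ha b hb hab
      rw [Finset.mem_product] at ha
      have hne : (a.2 : F) ≠ 1 := by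
        intro h0
        exact (Finset.mem_erase.mp ha.2).1 (Subtype.ext h0)
      obtain ⟨h1, h2⟩ := hd2 _ a.1.2 _ a.2.2 _ b.1.2 _ b.2.2 hne hab
      exact Prod.ext (Subtype.ext h1) (Subtype.ext h2)
    · intro x hx
      simp only [Finset.mem_filter, Finset.mem_univ, true_and] at hx
      obtain ⟨n, hn, h, hh, hne, hxeq⟩ := hd3 x hx
      refine ⟨(⟨n, hn⟩, ⟨h, hh⟩), ?_, hxeq.symm⟩
      rw [Finset.mem_product]
      refine ⟨Finset.mem_univ _, Finset.mem_erase.mpr ⟨?_, Finset.mem_univ _⟩⟩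
      intro h0
      exact hne (congrArg Subtype.val h0)
    · intro a _
      rfl
  have hinner : ∀ n : N, (∏ h ∈ (Finset.univ : Finset H).erase 1,
      c ((n : F) * (h : F) * (n : F)⁻¹) v) = v⁻¹ := by
    intro n
    have h1 := Finset.mul_prod_erase (Finset.univ : Finset H)
      (fun h : H => c ((n : F) * (h : F) * (n : F)⁻¹) v) (Finset.mem_univ 1)
    have h2 : (∏ h : H, c ((n : F) * (h : F) * (n : F)⁻¹) v) = 1 := by
      have h3 : ∀ h : H, c ((n : F) * (h : F) * (n : F)⁻¹) v =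
          c (n : F) (c (h : F) (c ((n : F)⁻¹) v)) := by
        intro h
        rw [map_mul, map_mul, MulAut.mul_apply, MulAut.mul_apply]
      simp_rw [h3]
      rw [← map_prod, hTH, map_one]
    rw [h2] at h1
    have h4 : c ((n : F) * ((1 : H) : F) * (n : F)⁻¹) v = v := by
      have h5 : (n : F) * ((1 : H) : F) * (n : F)⁻¹ = 1 := by
        rw [Subgroup.coe_one]; group
      rw [h5, map_one, MulAut.one_apply]
    rw [h4] at h1
    exact eq_inv_of_mul_eq_one_right h1
  rw [hTF v, hfirst, hsecond, one_mul] at hsplit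
  simp_rw [hinner] at hsplit
  rw [Finset.prod_const, Finset.card_univ, ← Nat.card_eq_fintype_card] at hsplit
  have h1 : v ^ Nat.card N = 1 := by
    have h0 : (v⁻¹) ^ Nat.card N = 1 := hsplit.symm
    rwa [inv_pow, inv_eq_one] at h0
  have h2 : orderOf v ∣ Nat.card N := orderOf_dvd_of_pow_eq_one h1
  have h3 : orderOf v ∣ Nat.card V := orderOf_dvd_natCard v
  have h4 : orderOf v ∣ Nat.gcd (Nat.card V) (Nat.card N) := Nat.dvd_gcd h3 h2
  rw [Nat.Coprime.gcd_eq_one hcop, Nat.dvd_one, orderOf_eq_one_iff] at h4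
  exact h4

end Cfsg.Agent.Helper4
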