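import Mathlib
import Cfsg.Agent.Helper4.Unipotent

set_option autoImplicit false

namespace Cfsg.Agent.Helper4

/-- In the plane, a vector with zero determinant against a nonzero vector `v` is a multiple
of `v`. -/
theorem vec2_parallel {F : Type*} [Field F] (v x : Fin 2 → F) (hv : v ≠ 0)
    (hdet : v 0 * x 1 - v 1 * x 0 = 0) : ∃ κ : F, x = κ • v := by
  have hv' : v 0 ≠ 0 ∨ v 1 ≠ 0 := by
    by_contra hcon
    push Not at hcon
    apply hv
    funext i
    fin_cases i
    · exact hcon.1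
    · exact hcon.2
  rcases hv' with hv0 | hv1
  · refine ⟨x 0 / v 0, ?_⟩
    funext i
    fin_cases i
    · simp only [Pi.smul_apply, smul_eq_mul, Fin.zero_eta]
      field_simp
    · simp only [Pi.smul_apply, smul_eq_mul, Fin.mk_one]
      field_simp
      linear_combination hdet
  · refine ⟨x 1 / v 1, ?_⟩
    funext i
    fin_cases i
    · simp only [Pi.smul_apply, smul_eq_mul, Fin.zero_eta]
      field_simp
      linear_combination -hdet
    · simp only [Pi.smul_apply, smul_eq_mul, Fin.mk_one]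
      field_simp

/-- A `2 × 2` invertible matrix `g ≠ 1` with `(g - 1)² = 0` is conjugate in `GL₂` to the
standard transvection. -/
theorem gl2_conj_of_sub_one_sq_zero {F : Type*} [Field F] (g : GL (Fin 2) F)
    (hN : ((g : Matrix (Fin 2) (Fin 2) F) - 1) * ((g : Matrix (Fin 2) (Fin 2) F) - 1) = 0)
    (hne : (g : Matrix (Fin 2) (Fin 2) F) ≠ 1) :
    ∃ P : GL (Fin 2) F, P * Matrix.GeneralLinearGroup.mkOfDetNeZero (!![1, 1; 0, 1] : Matrix (Fin 2) (Fin 2) F)
      (by simp [Matrix.det_fin_two]) * P⁻¹ = g := by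
  obtain ⟨N, hNdef⟩ : ∃ N : Matrix (Fin 2) (Fin 2) F, N = (g : Matrix (Fin 2) (Fin 2) F) - 1 := ⟨_, rfl⟩
  rw [← hNdef] at hN
  have hgN : (g : Matrix (Fin 2) (Fin 2) F) = 1 + N := by rw [hNdef]; abel
  have hN0 : N ≠ 0 := by
    intro h
    apply hne
    rw [hgN, h, add_zero]
  have hw : ∃ w : Fin 2 → F, N.mulVec w ≠ 0 := by
    by_contra hcon
    push Not at hcon
    apply hN0
    apply Matrix.mulVec_injective
    funext w
    rw [hcon w, Matrix.zero_mulVec]
  obtain ⟨w, hw⟩ := hw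
  obtain ⟨u, hu⟩ : ∃ u : Fin 2 → F, u = N.mulVec w := ⟨_, rfl⟩
  rw [← hu] at hw
  have hNu : N.mulVec u = 0 := by
    rw [hu, Matrix.mulVec_mulVec, hN, Matrix.zero_mulVec]
  have hdet : u 0 * w 1 - u 1 * w 0 ≠ 0 := by
    intro h0
    obtain ⟨κ, hκ⟩ := vec2_parallel u w hw h0
    apply hw
    rw [hu, hκ, Matrix.mulVec_smul, hNu, smul_zero]
  have hPdet : (!![u 0, w 0; u 1, w 1] : Matrix (Fin 2) (Fin 2) F).det ≠ 0 := by
    rw [Matrix.det_fin_two]
    intro h0
    apply hdet
    simp only [Matrix.of_apply, Matrix.cons_val', Matrix.cons_val_zero, Matrix.cons_val_one,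
      Matrix.cons_val_fin_one] at h0
    linear_combination h0
  have hgu : (g : Matrix (Fin 2) (Fin 2) F).mulVec u = u := by
    rw [hgN, Matrix.add_mulVec, Matrix.one_mulVec, hNu, add_zero]
  have hgw : (g : Matrix (Fin 2) (Fin 2) F).mulVec w = w + u := by
    rw [hgN, Matrix.add_mulVec, Matrix.one_mulVec, hu]
  refine ⟨Matrix.GeneralLinearGroup.mkOfDetNeZero _ hPdet, ?_⟩
  rw [mul_inv_eq_iff_eq_mul]
  apply Matrix.GeneralLinearGroup.ext
  intro i j
  rw [Matrix.GeneralLinearGroup.coe_mul, Matrix.GeneralLinearGroup.coe_mul]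
  have h0 := congrFun hgu i
  have h1 := congrFun hgw i
  simp only [Matrix.mulVec, dotProduct, Fin.sum_univ_two, Pi.add_apply] at h0 h1
  fin_cases i <;> fin_cases j <;>
    simp [Matrix.GeneralLinearGroup.mkOfDetNeZero, Matrix.mul_apply, Fin.sum_univ_two] <;>
    simp at h0 h1 <;>
    first | linear_combination -h0 | linear_combination -h1

end Cfsg.Agent.Helper4
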