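import Mathlib
import Cfsg.Agent.Helper4.HH123
import Cfsg.Agent.Helper3.Cores
import Cfsg.Prelude.Def_Local

set_option autoImplicit false

namespace Cfsg.Agent.Helper4

open Cfsg

theorem pow_relIndex_mem_of_le_normalizer {G : Type*} [Group G] (H K : Subgroup G)
    (hn : K ≤ Subgroup.normalizer (H : Set G)) {g : G} (hg : g ∈ K) : g ^ H.relIndex K ∈ H := by
  have : (H.subgroupOf K).Normal := Subgroup.normal_subgroupOf_of_le_normalizer hn
  exact Subgroup.pow_index_mem (H.subgroupOf K) ⟨g, hg⟩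

/-- One step of the relative Hall–Higman argument: the chain is only normalized by a normal
subgroup `X` centralizing `O_p(G)`. -/
theorem hh_chain_step {G : Type*} [Group G] [Finite G] {p : ℕ} [Fact p.Prime]
    (hO : pPrimeCore p G = ⊥) (X : Subgroup G) (hXn : X.Normal)
    (hXC : X ≤ Subgroup.centralizer (pCore p G : Set G))
    (A₀ A₁ : Subgroup G) (hA₁X : A₁ ≤ X)
    (hA₀n : X ≤ Subgroup.normalizer (A₀ : Set G)) (hA₁n : X ≤ Subgroup.normalizer (A₁ : Set G))
    (hfac : (∃ m : ℕ, A₀.relIndex A₁ = p ^ m) ∨ (A₀.relIndex A₁).Coprime p)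
    (IH : A₀ ≤ pCore p G) : A₁ ≤ pCore p G := by
  have hpp : p.Prime := Fact.out
  have hPp : IsPGroup p (pCore p G) := Helper5.pCore_isPGroup
  have hXs : X.IsSubnormal := hXn.isSubnormal
  have hA₁s : A₁.IsSubnormal :=
    Subgroup.IsSubnormal.step A₁ X hA₁X hXs ((Subgroup.normal_subgroupOf_iff_le_normalizer hA₁X).mpr hA₁n)
  apply Helper3.subnormal_isPGroup_le_pCore _ hA₁s
  apply Helper5.isPGroup_of_coprime_elements_trivial
  intro y hyA hycop
  rcases hfac with ⟨m, hm⟩ | hcop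
  · have h1 : y ^ p ^ m ∈ A₀ := by
      have h0 := pow_relIndex_mem_of_le_normalizer A₀ A₁ (hA₁X.trans hA₀n) hyA
      rwa [hm] at h0
    have h2 : y ^ p ^ m ∈ pCore p G := IH h1
    obtain ⟨j, hj⟩ := hPp ⟨_, h2⟩
    have h3 : (y ^ p ^ m) ^ p ^ j = 1 := by
      have h0 := congrArg Subtype.val hj
      rw [Subgroup.coe_pow, Subgroup.coe_one] at h0
      exact h0
    have h4 : orderOf y ∣ p ^ (m + j) := by
      apply orderOf_dvd_of_pow_eq_one
      rw [pow_add, pow_mul]; exact h3
    have h5 : orderOf y ∣ Nat.gcd (orderOf y) (p ^ (m + j)) := Nat.dvd_gcd dvd_rfl h4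
    rw [Nat.Coprime.gcd_eq_one (hycop.pow_right _), Nat.dvd_one, orderOf_eq_one_iff] at h5
    exact h5
  · obtain ⟨S⟩ : Nonempty (Sylow p ↥A₁) := inferInstance
    have hcen : ∀ x ∈ (S : Subgroup ↥A₁), ∀ c : ↥A₁, c * x = x * c := by
      intro x hx c
      obtain ⟨j, hj⟩ := S.2 ⟨x, hx⟩
      have h1 : (x : G) ^ p ^ j = 1 := by
        have h0 := congrArg Subtype.val (congrArg Subtype.val hj)
        simpa using h0
      have h2 : (x : G) ^ A₀.relIndex A₁ ∈ pCore p G :=
        IH (pow_relIndex_mem_of_le_normalizer A₀ A₁ (hA₁X.trans hA₀n) x.2)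
      have h3 : (x : G) ∈ pCore p G :=
        mem_of_pow_mem_of_coprime (pCore p G) (x : G) (A₀.relIndex A₁) (p ^ j)
          (Nat.Coprime.pow_right j hcop) h2 (by rw [h1]; exact Subgroup.one_mem _)
      have h4 := Subgroup.mem_centralizer_iff.mp (hXC (hA₁X c.2)) _ h3
      apply Subtype.ext
      rw [Subgroup.coe_mul, Subgroup.coe_mul]
      exact h4.symm
    obtain ⟨K₁, hK₁n, hK₁c, hK₁all⟩ := exists_normal_coprime_of_central_sylow S hcen
    have hDle : K₁.map A₁.subtype ≤ X := by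
      intro d hd
      obtain ⟨k, _, rfl⟩ := Subgroup.mem_map.mp hd
      exact hA₁X k.2
    have hDn : X ≤ Subgroup.normalizer ((K₁.map A₁.subtype : Subgroup G) : Set G) := by
      intro g hg
      apply Subgroup.mem_normalizer_fintype
      intro d hd
      obtain ⟨k, hk, rfl⟩ := Subgroup.mem_map.mp hd
      have h1 : g * (k : G) * g⁻¹ ∈ A₁ :=
        (Subgroup.mem_normalizer_iff.mp (hA₁n hg) _).mp k.2
      refine Subgroup.mem_map.mpr ⟨⟨_, h1⟩, ?_, rfl⟩
      apply hK₁all
      have h2 : orderOf (⟨g * (k : G) * g⁻¹, h1⟩ : ↥A₁) = orderOf k := by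
        rw [← Subgroup.orderOf_coe, ← Subgroup.orderOf_coe k]
        have h0 := MulEquiv.orderOf_eq (MulAut.conj g) (k : G)
        rw [MulAut.conj_apply] at h0
        exact h0
      rw [h2]
      have h3 : orderOf k ∣ Nat.card K₁ := K₁.orderOf_dvd_natCard hk
      exact Nat.Coprime.coprime_dvd_left h3 hK₁c
    have hDs : (K₁.map A₁.subtype).IsSubnormal :=
      Subgroup.IsSubnormal.step _ X hDle hXs
        ((Subgroup.normal_subgroupOf_iff_le_normalizer hDle).mpr hDn)
    have hDc : (Nat.card (K₁.map A₁.subtype)).Coprime p := by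
      rw [← Nat.card_congr (K₁.equivMapOfInjective _ (Subgroup.subtype_injective _)).toEquiv]
      exact hK₁c
    have hD : K₁.map A₁.subtype ≤ pPrimeCore p G :=
      Helper3.subnormal_coprime_le_pPrimeCore _ hDs hDc
    rw [hO] at hD
    have h1 : (⟨y, hyA⟩ : ↥A₁) ∈ K₁ := by
      apply hK₁all
      rw [← Subgroup.orderOf_coe]
      exact hycop
    have h2 : y ∈ K₁.map A₁.subtype := Subgroup.mem_map.mpr ⟨_, h1, rfl⟩
    exact Subgroup.mem_bot.mp (hD h2)

/-- Relative Hall–Higman: in a group with `O_{p'} = 1`, a normal subgroup centralizing `O_p` that is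
the image of a `p`-solvable group lies in `O_p`. -/
theorem hh_hom {G : Type*} [Group G] [Finite G] {p : ℕ} [Fact p.Prime]
    (hO : pPrimeCore p G = ⊥) {C : Type*} [Group C] (hC : IsPSolvable p C) (f : C →* G)
    (hfn : f.range.Normal) (hfC : f.range ≤ Subgroup.centralizer (pCore p G : Set G)) :
    f.range ≤ pCore p G := by
  have hpp : p.Prime := Fact.out
  obtain ⟨n, H, h0, hlast, _, hnorm, hfac⟩ := hC
  have hnorm' : ∀ i, f.range ≤ Subgroup.normalizer (((H i).map f : Subgroup G) : Set G) := by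
    intro i x hx
    obtain ⟨c, rfl⟩ := MonoidHom.mem_range.mp hx
    rw [Subgroup.mem_normalizer_iff]
    intro y
    constructor
    · intro hy
      obtain ⟨h, hh, rfl⟩ := Subgroup.mem_map.mp hy
      refine Subgroup.mem_map.mpr ⟨c * h * c⁻¹, (hnorm i).conj_mem h hh c, ?_⟩
      rw [map_mul, map_mul, map_inv]
    · intro hy
      obtain ⟨h, hh, hfh⟩ := Subgroup.mem_map.mp hy
      refine Subgroup.mem_map.mpr ⟨c⁻¹ * h * c⁻¹⁻¹, (hnorm i).conj_mem h hh c⁻¹, ?_⟩
      rw [map_mul, map_mul, map_inv, map_inv, map_inv, hfh, inv_inv]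
      group
  have key : ∀ i : ℕ, ∀ hi : i < n + 1, (H ⟨i, hi⟩).map f ≤ pCore p G := by
    intro i
    induction i with
    | zero =>
      intro hi
      have h1 : H ⟨0, hi⟩ = ⊥ := h0
      rw [h1, Subgroup.map_bot]
      exact bot_le
    | succ i ih =>
      intro hi
      have hi' : i < n := by omega
      have hdvd : ((H ⟨i, by omega⟩).map f).relIndex ((H ⟨i + 1, hi⟩).map f) ∣
          (H ⟨i, by omega⟩).relIndex (H ⟨i + 1, hi⟩) := by
        rw [← Subgroup.relIndex_comap]
        exact Subgroup.relIndex_dvd_of_le_left _ (Subgroup.le_comap_map _ _)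
      have hfac' : (∃ m : ℕ, ((H ⟨i, by omega⟩).map f).relIndex ((H ⟨i + 1, hi⟩).map f) = p ^ m) ∨
          (((H ⟨i, by omega⟩).map f).relIndex ((H ⟨i + 1, hi⟩).map f)).Coprime p := by
        rcases hfac ⟨i, hi'⟩ with ⟨m, hm⟩ | hcop
        · left
          have hm' : (H ⟨i, by omega⟩).relIndex (H ⟨i + 1, hi⟩) = p ^ m := hm
          rw [hm'] at hdvd
          obtain ⟨j, _, hj⟩ := (Nat.dvd_prime_pow hpp).mp hdvd
          exact ⟨j, hj⟩
        · right
          have hcop' : ((H ⟨i, by omega⟩).relIndex (H ⟨i + 1, hi⟩)).Coprime p := hcop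
          exact Nat.Coprime.coprime_dvd_left hdvd hcop'
      exact hh_chain_step hO f.range hfn hfC _ _ (Subgroup.map_le_range f _)
        (hnorm' _) (hnorm' _) hfac' (ih (by omega))
  have h1 := key n (by omega)
  have h2 : H ⟨n, by omega⟩ = ⊤ := hlast
  rw [h2, ← MonoidHom.range_eq_map] at h1
  exact h1

end Cfsg.Agent.Helper4
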