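import Mathlib
import Cfsg.Agent.Helper4.RelSylow

set_option autoImplicit false

namespace Cfsg.Agent.Helper4

open Equiv MulAction

/-- J1: a primitive group containing a `p`-cycle with at least two fixed points is
`(n - p)`-fold transitive. -/
theorem jordan_multi_trans {α : Type*} [Fintype α] [DecidableEq α] (G : Subgroup (Perm α))
    (hG : IsPreprimitive G α) {p : ℕ} (hp : p.Prime) (m : ℕ)
    (hpn : p + (m + 1) = Fintype.card α) {g : Perm α} (hgc : g.IsCycle)
    (hgp : g.support.card = p) (hg : g ∈ G) : IsMultiplyPretransitive G α (m + 1) := by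
  classical
  have hsc : Set.ncard ((g.support : Set α)ᶜ) = m + 1 := by
    apply Nat.add_left_cancel (n := p)
    rw [hpn, ← hgp, ← Set.ncard_coe_finset g.support, Set.ncard_add_ncard_compl,
      Nat.card_eq_fintype_card]
  have hprim : IsPreprimitive (fixingSubgroup G ((g.support : Set α)ᶜ))
      (SubMulAction.ofFixingSubgroup G ((g.support : Set α)ᶜ)) := by
    have := Perm.isPretransitive_of_isCycle_mem hgc hg
    apply IsPreprimitive.of_prime_card
    have hcard : Nat.card (SubMulAction.ofFixingSubgroup G ((g.support : Set α)ᶜ)) = p := by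
      rw [← hgp, ← Set.ncard_coe_finset g.support, ← Nat.card_coe_set_eq]
      apply Nat.card_congr
      exact Equiv.subtypeEquivRight (fun x => by
        rw [SubMulAction.mem_ofFixingSubgroup_iff]; simp)
    rw [hcard]; exact hp
  have hcard : m + 2 < Nat.card α := by
    rw [Nat.card_eq_fintype_card, ← hpn]
    have := hp.two_le
    omega
  haveI h1 : IsMultiplyPreprimitive G α (m + 2) := hG.isMultiplyPreprimitive hsc hcard hprim
  haveI h2 : IsMultiplyPretransitive G α (m + 2) :=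
    IsMultiplyPreprimitive.isMultiplyPretransitive G α (m + 2)
  exact isMultiplyPretransitive_of_le (Nat.le_succ _) hcard.le

/-- J4: an `(m+1)`-transitive group induces every permutation of a fixed `(m+1)`-set. -/
theorem jordan_exists_agree {α : Type*} [Fintype α] [DecidableEq α] (G : Subgroup (Perm α))
    (S : Finset α) (m : ℕ) (hS : Sᶜ.card = m + 1) (hT : IsMultiplyPretransitive G α (m + 1))
    (σ : Perm α) : ∃ x ∈ G, ∀ a, a ∉ S → x a = σ a := by
  obtain ⟨e, he⟩ : ∃ e : Fin (m + 1) ↪ α, ∀ a, a ∉ S → ∃ i, e i = a := by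
    refine ⟨(Finset.equivFinOfCardEq hS).symm.toEmbedding.trans (Function.Embedding.subtype _),
      fun a ha => ⟨Finset.equivFinOfCardEq hS ⟨a, Finset.mem_compl.mpr ha⟩, ?_⟩⟩
    simp
  haveI := hT
  obtain ⟨x, hx⟩ := MulAction.exists_smul_eq (↥G) e (e.trans σ.toEmbedding)
  refine ⟨x, x.2, fun a ha => ?_⟩
  obtain ⟨i, rfl⟩ := he a ha
  have h1 := congrArg (fun f : Fin (m + 1) ↪ α => f i) hx
  have h2 : x • e i = σ (e i) := by simpa using h1
  exact h2

/-- J2: an element of `G` preserving the support of the `p`-cycle `g` can be corrected by an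
element fixing the complement pointwise so as to normalize `⟨g⟩`. -/
theorem jordan_sylow_conj {α : Type*} [Fintype α] [DecidableEq α] (G : Subgroup (Perm α))
    {p : ℕ} (hp : p.Prime) {g : Perm α} (hgc : g.IsCycle) (hgp : g.support.card = p)
    (hg : g ∈ G) (x : Perm α) (hx : x ∈ G) (hxS : ∀ a, x a ∈ g.support ↔ a ∈ g.support) :
    ∃ c ∈ G, (∀ a, a ∉ g.support → c a = a) ∧
      (c * x) * g * (c * x)⁻¹ ∈ Subgroup.zpowers g := by
  haveI : Fact p.Prime := ⟨hp⟩
  obtain ⟨K, hmemK⟩ : ∃ K : Subgroup (Perm α),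
      ∀ y : Perm α, y ∈ K ↔ y ∈ G ∧ ∀ a, a ∉ g.support → y a = a := by
    refine ⟨G ⊓ fixingSubgroup (Perm α) ((g.support : Set α)ᶜ), fun y => ?_⟩
    simp only [Subgroup.mem_inf, mem_fixingSubgroup_iff, Set.mem_compl_iff, Finset.mem_coe,
      Perm.smul_def]
  have hgK : g ∈ K := (hmemK g).mpr ⟨hg, fun a ha => Perm.notMem_support.mp ha⟩
  have hord : orderOf g = p := by rw [hgc.orderOf, hgp]
  have hPp : IsPGroup p (Subgroup.zpowers g) := by
    apply IsPGroup.of_card (n := 1); rw [Nat.card_zpowers, hord, pow_one]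
  have hPK : Subgroup.zpowers g ≤ K := Subgroup.zpowers_le.mpr hgK
  have hg' : x * g * x⁻¹ ∈ K := by
    rw [hmemK]
    refine ⟨G.mul_mem (G.mul_mem hx hg) (G.inv_mem hx), fun a ha => ?_⟩
    have h1 : x⁻¹ a ∉ g.support := by
      intro h; apply ha
      have := (hxS (x⁻¹ a)).mpr h
      simpa using this
    have h2 : g (x⁻¹ a) = x⁻¹ a := Perm.notMem_support.mp h1
    show x (g (x⁻¹ a)) = a
    rw [h2]
    exact x.apply_symm_apply a
  have hQp : IsPGroup p (Subgroup.zpowers (x * g * x⁻¹)) := by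
    apply IsPGroup.of_card (n := 1)
    rw [Nat.card_zpowers, pow_one, ← hord]
    exact MulEquiv.orderOf_eq (MulAut.conj x) g
  have hQK : Subgroup.zpowers (x * g * x⁻¹) ≤ K := Subgroup.zpowers_le.mpr hg'
  have hidx : ¬ p ∣ (Subgroup.zpowers g).relIndex K := by
    have hKdvd : Nat.card K ∣ p.factorial := by
      have hle : K ≤ (Perm.ofSubtype : Perm {a // a ∈ g.support} →* Perm α).range := by
        intro y hy
        rw [hmemK] at hy
        have h₁ : ∀ a, y a ∈ g.support ↔ a ∈ g.support := by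
          intro a
          constructor
          · intro h
            by_contra ha
            rw [hy.2 a ha] at h; exact ha h
          · intro h
            by_contra hya
            have h3 : y a = a := y.injective (hy.2 (y a) hya)
            rw [h3] at hya; exact hya h
        have h₂ : ∀ a, y a ≠ a → a ∈ g.support := fun a ha => by
          by_contra h; exact ha (hy.2 a h)
        exact ⟨y.subtypePerm h₁, Perm.ofSubtype_subtypePerm h₁ h₂⟩
      have hcard : Nat.card (Perm.ofSubtype : Perm {a // a ∈ g.support} →* Perm α).range =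
          p.factorial := by
        rw [← Nat.card_congr (MonoidHom.ofInjective Perm.ofSubtype_injective).toEquiv,
          Nat.card_perm, Nat.card_eq_fintype_card, Fintype.card_coe, hgp]
      rw [← hcard]; exact Subgroup.card_dvd_of_le hle
    intro hdvd
    have h1 : Nat.card ((Subgroup.zpowers g).subgroupOf K) * (Subgroup.zpowers g).relIndex K =
        Nat.card K := Subgroup.card_mul_index _
    rw [Nat.card_congr (Subgroup.subgroupOfEquivOfLe hPK).toEquiv, Nat.card_zpowers, hord] at h1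
    rw [← h1, ← Nat.mul_factorial_pred hp.pos.ne'] at hKdvd
    have h2 : (Subgroup.zpowers g).relIndex K ∣ (p - 1).factorial :=
      Nat.dvd_of_mul_dvd_mul_left hp.pos hKdvd
    have h3 := (hp.dvd_factorial).mp (hdvd.trans h2)
    have := hp.pos
    omega
  obtain ⟨c, hcK, hc⟩ := exists_conj_le_of_relIndex K (Subgroup.zpowers g)
    (Subgroup.zpowers (x * g * x⁻¹)) hPp hidx hQp hQK
  have hc' := hc (x * g * x⁻¹) (Subgroup.mem_zpowers _)
  rw [hmemK] at hcK
  refine ⟨c, hcK.1, hcK.2, ?_⟩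
  have e : c * x * g * (c * x)⁻¹ = c * (x * g * x⁻¹) * c⁻¹ := by group
  rw [e]; exact hc'

/-- Jordan's theorem: a primitive group of degree `n` containing a `p`-cycle, `p` prime,
`p + 3 ≤ n`, contains the alternating group. -/
theorem jordan_prime_cycle {α : Type*} [Fintype α] [DecidableEq α] (G : Subgroup (Perm α))
    (hG : IsPreprimitive G α) {p : ℕ} (hp : p.Prime) (hpn : p + 3 ≤ Fintype.card α)
    {g : Perm α} (hgc : g.IsCycle) (hgp : g.support.card = p) (hg : g ∈ G) :
    alternatingGroup α ≤ G := by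
  classical
  obtain ⟨m, hm⟩ : ∃ m, p + (m + 1) = Fintype.card α := ⟨Fintype.card α - p - 1, by omega⟩
  have hT := jordan_multi_trans G hG hp m hm hgc hgp hg
  have hSc : (g.support)ᶜ.card = m + 1 := by
    rw [Finset.card_compl, hgp]; omega
  have h3 : 2 < (g.support)ᶜ.card := by rw [hSc]; omega
  obtain ⟨u, v, w, hu, hv, hw, huv, huw, hvw⟩ := Finset.two_lt_card_iff.mp h3
  rw [Finset.mem_compl] at hu hv hw
  have hσ : ∀ a b : α, a ∉ g.support → b ∉ g.support →
      ∀ c, swap a b c ∈ g.support ↔ c ∈ g.support := by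
    intro a b ha hb c
    by_cases hca : c = a
    · subst hca; simp [ha, hb]
    · by_cases hcb : c = b
      · subst hcb; simp [ha, hb]
      · rw [swap_apply_of_ne_of_ne hca hcb]
  have key : ∀ a b : α, a ∉ g.support → b ∉ g.support →
      ∃ y ∈ G, y * g * y⁻¹ ∈ Subgroup.zpowers g ∧
        (∀ c, c ∉ g.support → y c = swap a b c) ∧
        (∀ c, c ∉ g.support → y⁻¹ c = swap a b c) := by
    intro a b ha hb
    obtain ⟨x, hxG, hx⟩ := jordan_exists_agree G g.support m hSc hT (swap a b)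
    have hxS : ∀ c, x c ∈ g.support ↔ c ∈ g.support := by
      intro c
      constructor
      · intro h
        by_contra hc
        rw [hx c hc, hσ a b ha hb] at h; exact hc h
      · intro h
        by_contra hxc
        have hd : swap a b (x c) ∉ g.support := fun h' => hxc ((hσ a b ha hb _).mp h')
        have h2 : x (swap a b (x c)) = x c := by rw [hx _ hd, swap_apply_self]
        have h3 : swap a b (x c) = c := x.injective h2
        rw [h3] at hd; exact hd h
    obtain ⟨c, hcG, hcfix, hcn⟩ := jordan_sylow_conj G hp hgc hgp hg x hxG hxS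
    have hfwd : ∀ d, d ∉ g.support → (c * x) d = swap a b d := by
      intro d hd
      rw [Perm.mul_apply, hx d hd]
      exact hcfix _ (fun h' => hd ((hσ a b ha hb d).mp h'))
    refine ⟨c * x, G.mul_mem hcG hxG, hcn, hfwd, fun d hd => ?_⟩
    rw [Perm.inv_eq_iff_eq]
    have hd' : swap a b d ∉ g.support := fun h' => hd ((hσ a b ha hb d).mp h')
    rw [hfwd _ hd', swap_apply_self]
  obtain ⟨y₁, hy₁G, hy₁n, hy₁, hy₁i⟩ := key u v hu hv
  obtain ⟨y₂, hy₂G, hy₂n, hy₂, hy₂i⟩ := key v w hv hw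
  obtain ⟨k₁, hk₁⟩ := Subgroup.mem_zpowers_iff.mp hy₁n
  obtain ⟨k₂, hk₂⟩ := Subgroup.mem_zpowers_iff.mp hy₂n
  have hconjpow : ∀ (y : Perm α) (k n : ℤ), g ^ k = y * g * y⁻¹ →
      y * g ^ n * y⁻¹ = g ^ (k * n) := by
    intro y k n h
    rw [zpow_mul, h, conj_zpow]
  have h12 : (y₁ * y₂) * g * (y₁ * y₂)⁻¹ = g ^ (k₁ * k₂) := by
    have e : (y₁ * y₂) * g * (y₁ * y₂)⁻¹ = y₁ * (y₂ * g * y₂⁻¹) * y₁⁻¹ := by group
    rw [e, ← hk₂, hconjpow y₁ k₁ k₂ hk₁]
  have h21 : (y₂ * y₁) * g * (y₂ * y₁)⁻¹ = g ^ (k₁ * k₂) := by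
    have e : (y₂ * y₁) * g * (y₂ * y₁)⁻¹ = y₂ * (y₁ * g * y₁⁻¹) * y₂⁻¹ := by group
    rw [e, ← hk₁, hconjpow y₂ k₂ k₁ hk₂, mul_comm]
  obtain ⟨y, hydef⟩ : ∃ y : Perm α, y = y₁⁻¹ * y₂⁻¹ * y₁ * y₂ := ⟨_, rfl⟩
  have hyG : y ∈ G := by
    rw [hydef]
    exact G.mul_mem (G.mul_mem (G.mul_mem (G.inv_mem hy₁G) (G.inv_mem hy₂G)) hy₁G) hy₂G
  have hyg : y * g = g * y := by
    have h := h12.trans h21.symm
    rw [hydef]
    calc (y₁⁻¹ * y₂⁻¹ * y₁ * y₂) * g
        = (y₂ * y₁)⁻¹ * ((y₁ * y₂) * g * (y₁ * y₂)⁻¹) * (y₁ * y₂) := by group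
      _ = (y₂ * y₁)⁻¹ * ((y₂ * y₁) * g * (y₂ * y₁)⁻¹) * (y₁ * y₂) := by rw [h]
      _ = g * (y₁⁻¹ * y₂⁻¹ * y₁ * y₂) := by group
  obtain ⟨τ, hτdef⟩ : ∃ τ : Perm α, τ = swap u v * swap v w * (swap u v * swap v w) := ⟨_, rfl⟩
  have hτ3 : τ.IsThreeCycle := by
    rw [hτdef, swap_comm u v]
    exact (Perm.isThreeCycle_swap_mul_swap_same (Ne.symm huv) hvw huw).isThreeCycle_sq
  have hτfix : ∀ a, a ∈ g.support → τ a = a := by
    intro a ha
    have hau : a ≠ u := fun h => hu (h ▸ ha)
    have hav : a ≠ v := fun h => hv (h ▸ ha)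
    have haw : a ≠ w := fun h => hw (h ▸ ha)
    rw [hτdef]
    simp only [Perm.mul_apply]
    rw [swap_apply_of_ne_of_ne hav haw, swap_apply_of_ne_of_ne hau hav,
      swap_apply_of_ne_of_ne hav haw, swap_apply_of_ne_of_ne hau hav]
  have hyτ : ∀ a, a ∉ g.support → y a = τ a := by
    intro a ha
    have h1 : swap v w a ∉ g.support := fun h' => ha ((hσ v w hv hw a).mp h')
    have h2 : swap u v (swap v w a) ∉ g.support := fun h' => h1 ((hσ u v hu hv _).mp h')
    have h3 : swap v w (swap u v (swap v w a)) ∉ g.support :=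
      fun h' => h2 ((hσ v w hv hw _).mp h')
    rw [hydef, hτdef]
    simp only [Perm.mul_apply]
    rw [hy₂ a ha, hy₁ _ h1, hy₂i _ h2, hy₁i _ h3]
  obtain ⟨a₀, ha₀⟩ : g.support.Nonempty := by
    rw [← Finset.card_pos, hgp]; exact hp.pos
  have hyS : ∀ a, a ∈ g.support → y a ∈ g.support := by
    intro a ha
    rw [Perm.mem_support] at ha ⊢
    intro h
    have h1 : g (y a) = y (g a) := by
      have := congrArg (fun f : Perm α => f a) hyg
      simp only [Perm.mul_apply] at this
      exact this.symm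
    rw [h1] at h
    exact ha (y.injective h)
  obtain ⟨j, hj⟩ := hgc.sameCycle (Perm.mem_support.mp ha₀) (Perm.mem_support.mp (hyS a₀ ha₀))
  have hycomm : ∀ (i : ℤ) (a : α), y ((g ^ i) a) = (g ^ i) (y a) := by
    intro i a
    have hc : Commute y g := hyg
    have h2 := congrArg (fun f : Perm α => f a) (hc.zpow_right i).eq
    simp only [Perm.mul_apply] at h2
    exact h2
  have hyS' : ∀ a, a ∈ g.support → y a = (g ^ j) a := by
    intro a ha
    obtain ⟨i, hi⟩ := hgc.sameCycle (Perm.mem_support.mp ha₀) (Perm.mem_support.mp ha)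
    rw [← hi, hycomm, ← hj, ← Perm.mul_apply, ← Perm.mul_apply, ← zpow_add, ← zpow_add, add_comm]
  have hz : y * (g ^ j)⁻¹ = τ := by
    ext a
    rw [Perm.mul_apply]
    by_cases ha : a ∈ g.support
    · have h1 : (g ^ j)⁻¹ a ∈ g.support := by
        rw [← zpow_neg]; exact Perm.zpow_apply_mem_support.mpr ha
      rw [hyS' _ h1, ← Perm.mul_apply, mul_inv_cancel, Perm.one_apply]
      exact (hτfix a ha).symm
    · have h1 : (g ^ j)⁻¹ a = a := by
        rw [← zpow_neg]
        exact Perm.zpow_apply_eq_self_of_apply_eq_self (Perm.notMem_support.mp ha) _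
      rw [h1]; exact hyτ a ha
  have hτG : τ ∈ G := by
    rw [← hz]; exact G.mul_mem hyG (G.inv_mem (G.zpow_mem hg j))
  exact Perm.alternatingGroup_le_of_isPreprimitive_of_isThreeCycle_mem hG hτ3 hτG

end Cfsg.Agent.Helper4
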