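import Cfsg.Prelude.Def_ConjugacyFunctors

set_option autoImplicit false

namespace Cfsg.Agent.Helper4

open Cfsg

theorem kUpperStarFamily_antitone {P : Type*} [Group P] {Q Q' : Subgroup P} (h : Q ≤ Q') :
    kUpperStarFamily Q' ⊆ kUpperStarFamily Q := by
  intro B hB
  exact ⟨hB.1, (Subgroup.commutator_mono le_rfl h).trans hB.2⟩

theorem kLowerStarFamily_antitone {P : Type*} [Group P] {Q Q' : Subgroup P} (h : Q ≤ Q') :
    kLowerStarFamily Q' ⊆ kLowerStarFamily Q := by
  intro B hB
  exact ⟨hB.1, h.trans hB.2.1, fun A hA hAQ => hB.2.2 A hA (hAQ.trans h)⟩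

theorem kSeqOdd_succ_le {P : Type*} [Group P] (n : ℕ) : kSeqOdd P (n + 1) ≤ kSeqOdd P n := by
  induction n with
  | zero => simp [kSeqOdd]
  | succ n ih =>
    have h1 : sSup (kLowerStarFamily (kSeqOdd P n)) ≤ sSup (kLowerStarFamily (kSeqOdd P (n + 1))) :=
      sSup_le_sSup (kLowerStarFamily_antitone ih)
    show sSup (kUpperStarFamily (sSup (kLowerStarFamily (kSeqOdd P (n + 1))))) ≤
      sSup (kUpperStarFamily (sSup (kLowerStarFamily (kSeqOdd P n))))
    exact sSup_le_sSup (kUpperStarFamily_antitone h1)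

theorem kSeqEven_le_succ {P : Type*} [Group P] (n : ℕ) : kSeqEven P n ≤ kSeqEven P (n + 1) :=
  sSup_le_sSup (kLowerStarFamily_antitone (kSeqOdd_succ_le n))

theorem kSeqOdd_antitone {P : Type*} [Group P] : Antitone (kSeqOdd P) :=
  antitone_nat_of_succ_le kSeqOdd_succ_le

theorem kSeqEven_monotone {P : Type*} [Group P] : Monotone (kSeqEven P) :=
  monotone_nat_of_le_succ kSeqEven_le_succ

theorem abelian_normal_mem_classTwo {P : Type*} [Group P] (A : Subgroup P)
    (hA : IsMulCommutative ↥A) : A ∈ classTwoSubgroups P := by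
  show ⁅A, A⁆ ≤ Subgroup.centralizer (A : Set P)
  have : ⁅A, A⁆ = ⊥ := by
    rw [Subgroup.commutator_eq_bot_iff_le_centralizer]
    intro a ha b hb
    have := (isMulCommutative_iff.mp hA) ⟨b, hb⟩ ⟨a, ha⟩
    exact congrArg Subtype.val this
  rw [this]; exact bot_le

theorem abelian_le_centralizer {P : Type*} [Group P] (A : Subgroup P)
    (hA : IsMulCommutative ↥A) : A ≤ Subgroup.centralizer (A : Set P) := by
  intro a ha b hb
  have := (isMulCommutative_iff.mp hA) ⟨b, hb⟩ ⟨a, ha⟩
  exact congrArg Subtype.val this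

theorem abelian_normal_mem_lower {P : Type*} [Group P] (A : Subgroup P) [A.Normal]
    (hA : IsMulCommutative ↥A) (Q : Subgroup P) : A ∈ kLowerStarFamily Q := by
  refine ⟨abelian_normal_mem_classTwo A hA, ?_, ?_⟩
  · rw [Subgroup.normalizer_eq_top]; exact le_top
  · intro A' _ _ _ _ _
    exact le_inf (Subgroup.commutator_le_left A A') ((Subgroup.commutator_le_left A A').trans (abelian_le_centralizer A hA))

theorem abelian_normal_mem_upper {P : Type*} [Group P] (A : Subgroup P) [A.Normal]
    (hA : IsMulCommutative ↥A) (Q : Subgroup P) : A ∈ kUpperStarFamily Q :=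
  ⟨abelian_normal_mem_classTwo A hA,
    le_inf (Subgroup.commutator_le_left A Q) ((Subgroup.commutator_le_left A Q).trans (abelian_le_centralizer A hA))⟩

theorem abelian_normal_le_kSeqEven {P : Type*} [Group P] (A : Subgroup P) [A.Normal]
    (hA : IsMulCommutative ↥A) (n : ℕ) : A ≤ kSeqEven P n :=
  le_sSup (abelian_normal_mem_lower A hA _)

theorem abelian_normal_le_kSeqOdd {P : Type*} [Group P] (A : Subgroup P) [A.Normal]
    (hA : IsMulCommutative ↥A) (n : ℕ) : A ≤ kSeqOdd P n := by
  cases n with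
  | zero => simp [kSeqOdd]
  | succ n => exact le_sSup (abelian_normal_mem_upper A hA _)

end Cfsg.Agent.Helper4
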