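import Cfsg.Agent.Helper4.KInf
import Cfsg.Agent.Helper4.PGroup
import Mathlib.Algebra.Group.Subgroup.Finite
import Mathlib.GroupTheory.Commutator.Basic

set_option autoImplicit false

namespace Cfsg.Agent.Helper4

open Cfsg
open scoped commutatorElement

/-- If `H₁`, `H₂` normalize `Z` and `⁅H₁, K⁆, ⁅H₂, K⁆ ≤ Z` then `⁅H₁ ⊔ H₂, K⁆ ≤ Z`. -/
theorem sup_commutator_le {G : Type*} [Group G] (H₁ H₂ K Z : Subgroup G)
    (hN₁ : H₁ ≤ Subgroup.normalizer (Z : Set G)) (hN₂ : H₂ ≤ Subgroup.normalizer (Z : Set G))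
    (h₁ : ⁅H₁, K⁆ ≤ Z) (h₂ : ⁅H₂, K⁆ ≤ Z) : ⁅H₁ ⊔ H₂, K⁆ ≤ Z := by
  let S : Subgroup G :=
    { carrier := {h | h ∈ Subgroup.normalizer (Z : Set G) ∧ ∀ k ∈ K, ⁅h, k⁆ ∈ Z}
      one_mem' := ⟨Subgroup.one_mem _, fun k _ => by simp [commutatorElement_def]⟩
      mul_mem' := by
        rintro a b ⟨ha, ha'⟩ ⟨hb, hb'⟩
        refine ⟨Subgroup.mul_mem _ ha hb, fun k hk => ?_⟩
        have e : ⁅a * b, k⁆ = a * ⁅b, k⁆ * a⁻¹ * ⁅a, k⁆ := by
          simp only [commutatorElement_def]; group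
        rw [e]
        exact Z.mul_mem ((Subgroup.mem_normalizer_iff.mp ha _).mp (hb' k hk)) (ha' k hk)
      inv_mem' := by
        rintro a ⟨ha, ha'⟩
        refine ⟨Subgroup.inv_mem _ ha, fun k hk => ?_⟩
        have e : ⁅a⁻¹, k⁆ = a⁻¹ * (⁅a, k⁆)⁻¹ * a⁻¹⁻¹ := by
          simp only [commutatorElement_def]; group
        rw [e]
        exact (Subgroup.mem_normalizer_iff.mp (Subgroup.inv_mem _ ha) _).mp (Z.inv_mem (ha' k hk)) }
  have hS₁ : H₁ ≤ S := fun h hh =>
    ⟨hN₁ hh, fun k hk => h₁ (Subgroup.commutator_mem_commutator hh hk)⟩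
  have hS₂ : H₂ ≤ S := fun h hh =>
    ⟨hN₂ hh, fun k hk => h₂ (Subgroup.commutator_mem_commutator hh hk)⟩
  rw [Subgroup.commutator_le]
  intro g hg k hk
  exact ((sup_le hS₁ hS₂) hg).2 k hk

/-- Elements of `C(B)` that are central modulo `Z(B)` in `N(B)`. -/
def ccSub {P : Type*} [Group P] (B : Subgroup P) : Subgroup P where
  carrier := {y | y ∈ Subgroup.centralizer (B : Set P) ∧
    ∀ g ∈ Subgroup.normalizer (B : Set P),
      g * y * g⁻¹ * y⁻¹ ∈ B ⊓ Subgroup.centralizer (B : Set P)}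
  one_mem' := ⟨Subgroup.one_mem _, fun g _ => by simp⟩
  mul_mem' := by
    rintro a b ⟨ha, ha'⟩ ⟨hb, hb'⟩
    refine ⟨Subgroup.mul_mem _ ha hb, fun g hg => ?_⟩
    have e : g * (a * b) * g⁻¹ * (a * b)⁻¹ =
        (g * a * g⁻¹ * a⁻¹) * (a * (g * b * g⁻¹ * b⁻¹) * a⁻¹) := by group
    rw [e]
    have hz := hb' g hg
    have hz' : a * (g * b * g⁻¹ * b⁻¹) * a⁻¹ = g * b * g⁻¹ * b⁻¹ := by
      have := ha _ (Subgroup.mem_inf.mp hz).1
      rw [← this]; group
    rw [hz']
    exact Subgroup.mul_mem _ (ha' g hg) hz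
  inv_mem' := by
    rintro a ⟨ha, ha'⟩
    refine ⟨Subgroup.inv_mem _ ha, fun g hg => ?_⟩
    have e : g * a⁻¹ * g⁻¹ * a⁻¹⁻¹ = a⁻¹ * (g * a * g⁻¹ * a⁻¹)⁻¹ * a := by group
    rw [e]
    have hz := Subgroup.inv_mem _ (ha' g hg)
    have hz' : a⁻¹ * (g * a * g⁻¹ * a⁻¹)⁻¹ * a = (g * a * g⁻¹ * a⁻¹)⁻¹ := by
      have := ha _ (Subgroup.mem_inf.mp hz).1
      rw [mul_assoc, this]; group
    rw [hz']; exact hz

theorem ccSub_le_centralizer {P : Type*} [Group P] (B : Subgroup P) :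
    ccSub B ≤ Subgroup.centralizer (B : Set P) := fun _ hy => hy.1

theorem ccSub_not_le {P : Type*} [Group P] [Finite P] {p : ℕ} [Fact p.Prime] (hP : IsPGroup p P)
    (B : Subgroup P) (hB : ¬ Subgroup.centralizer (B : Set P) ≤ B) : ¬ ccSub B ≤ B := by
  intro hle
  have hCN : Subgroup.centralizer (B : Set P) ≤ Subgroup.normalizer (B : Set P) :=
    Subgroup.centralizer_le_normalizer _
  have hBn : (B.subgroupOf (Subgroup.normalizer (B : Set P))).Normal := Subgroup.normal_in_normalizer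
  have hDn : ((Subgroup.centralizer (B : Set P)).subgroupOf (Subgroup.normalizer (B : Set P))).Normal := by
    constructor
    intro c hc g
    rw [Subgroup.mem_subgroupOf] at hc ⊢
    rw [Subgroup.mem_centralizer_iff] at hc ⊢
    intro b hb
    have hb' : (g : P)⁻¹ * b * (g : P) ∈ B := by
      have := (Subgroup.mem_normalizer_iff.mp (Subgroup.inv_mem _ g.2) b).mp hb
      simpa using this
    have h1 := hc _ hb'
    push_cast
    calc b * ((g : P) * (c : P) * (g : P)⁻¹)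
        = (g : P) * ((g : P)⁻¹ * b * (g : P) * (c : P)) * (g : P)⁻¹ := by group
      _ = (g : P) * ((c : P) * ((g : P)⁻¹ * b * (g : P))) * (g : P)⁻¹ := by rw [h1]
      _ = (g : P) * (c : P) * (g : P)⁻¹ * b := by group
  have hZn : (B.subgroupOf (Subgroup.normalizer (B : Set P)) ⊓
      (Subgroup.centralizer (B : Set P)).subgroupOf (Subgroup.normalizer (B : Set P))).Normal :=
    inferInstance
  have hne : ((Subgroup.centralizer (B : Set P)).subgroupOf (Subgroup.normalizer (B : Set P))).map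
      (QuotientGroup.mk' (B.subgroupOf (Subgroup.normalizer (B : Set P)) ⊓
      (Subgroup.centralizer (B : Set P)).subgroupOf (Subgroup.normalizer (B : Set P)))) ≠ ⊥ := by
    intro h
    rw [Subgroup.map_eq_bot_iff, QuotientGroup.ker_mk'] at h
    apply hB
    intro c hc
    have : (⟨c, hCN hc⟩ : Subgroup.normalizer (B : Set P)) ∈
        (B.subgroupOf (Subgroup.normalizer (B : Set P)) ⊓
      (Subgroup.centralizer (B : Set P)).subgroupOf (Subgroup.normalizer (B : Set P))) :=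
      h (Subgroup.mem_subgroupOf.mpr hc)
    exact (Subgroup.mem_inf.mp this).1
  have hDn' := hDn.map (QuotientGroup.mk' (B.subgroupOf (Subgroup.normalizer (B : Set P)) ⊓
      (Subgroup.centralizer (B : Set P)).subgroupOf (Subgroup.normalizer (B : Set P))))
      (QuotientGroup.mk'_surjective _)
  obtain ⟨x', hx'D, hx'1, hx'cen⟩ := exists_ne_one_mem_center_of_normal
    ((hP.to_subgroup (Subgroup.normalizer (B : Set P))).to_quotient
      (B.subgroupOf (Subgroup.normalizer (B : Set P)) ⊓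
      (Subgroup.centralizer (B : Set P)).subgroupOf (Subgroup.normalizer (B : Set P)))) _ hne
  obtain ⟨x, hxD, rfl⟩ := Subgroup.mem_map.mp hx'D
  have hxcc : (x : P) ∈ ccSub B := by
    refine ⟨hxD, fun g hg => ?_⟩
    have hcomm : QuotientGroup.mk' (B.subgroupOf (Subgroup.normalizer (B : Set P)) ⊓
      (Subgroup.centralizer (B : Set P)).subgroupOf (Subgroup.normalizer (B : Set P)))
        ((⟨g, hg⟩ : Subgroup.normalizer (B : Set P)) * x *
          (⟨g, hg⟩ : Subgroup.normalizer (B : Set P))⁻¹ * x⁻¹) = 1 := by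
      rw [map_mul, map_mul, map_mul, map_inv, map_inv]
      rw [Subgroup.mem_center_iff] at hx'cen
      rw [hx'cen]
      group
    have := (QuotientGroup.eq_one_iff _).mp hcomm
    exact Subgroup.mem_inf.mpr ⟨(Subgroup.mem_inf.mp this).1, (Subgroup.mem_inf.mp this).2⟩
  have hxB : (x : P) ∉ B := by
    intro h
    apply hx'1
    exact (QuotientGroup.eq_one_iff x).mpr (Subgroup.mem_inf.mpr ⟨h, hxD⟩)
  exact hxB (hle hxcc)

section
variable {P : Type*} [Group P] (B : Subgroup P)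

theorem zB_le_centralizer_sup : B ⊓ Subgroup.centralizer (B : Set P) ≤
    Subgroup.centralizer ((B ⊔ ccSub B : Subgroup P) : Set P) := by
  rw [Subgroup.le_centralizer_iff]
  apply sup_le
  · rw [Subgroup.le_centralizer_iff]; exact inf_le_right
  · exact (ccSub_le_centralizer B).trans
      (Subgroup.centralizer_le (SetLike.coe_subset_coe.mpr inf_le_left))

theorem sup_le_normalizer_zB : B ⊔ ccSub B ≤
    Subgroup.normalizer ((B ⊓ Subgroup.centralizer (B : Set P) : Subgroup P) : Set P) :=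
  (Subgroup.le_centralizer_iff.mp (zB_le_centralizer_sup B)).trans
    (Subgroup.centralizer_le_normalizer _)

theorem ccSub_commutator_le (X : Subgroup P) (hX : X ≤ Subgroup.normalizer (B : Set P)) :
    ⁅ccSub B, X⁆ ≤ B ⊓ Subgroup.centralizer (B : Set P) := by
  rw [Subgroup.commutator_le]
  intro y hy x hx
  have h := Subgroup.inv_mem _ (hy.2 x (hX hx))
  have e : ⁅y, x⁆ = (x * y * x⁻¹ * y⁻¹)⁻¹ := by rw [commutatorElement_def]; group
  rw [e]; exact h

theorem sup_ccSub_commutator_le (X : Subgroup P) (hX : X ≤ Subgroup.normalizer (B : Set P))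
    (hBX : ⁅B, X⁆ ≤ B ⊓ Subgroup.centralizer (B : Set P)) :
    ⁅B ⊔ ccSub B, X⁆ ≤ B ⊓ Subgroup.centralizer (B : Set P) :=
  sup_commutator_le B (ccSub B) X _ (le_sup_left.trans (sup_le_normalizer_zB B))
    (le_sup_right.trans (sup_le_normalizer_zB B)) hBX (ccSub_commutator_le B X hX)

theorem sup_ccSub_classTwo (hB : B ∈ classTwoSubgroups P) :
    B ⊔ ccSub B ∈ classTwoSubgroups P := by
  show ⁅B ⊔ ccSub B, B ⊔ ccSub B⁆ ≤ Subgroup.centralizer ((B ⊔ ccSub B : Subgroup P) : Set P)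
  refine le_trans ?_ (zB_le_centralizer_sup B)
  have hBN : B ≤ Subgroup.normalizer (B : Set P) := Subgroup.le_normalizer
  have hYN : ccSub B ≤ Subgroup.normalizer (B : Set P) :=
    (ccSub_le_centralizer B).trans (Subgroup.centralizer_le_normalizer _)
  have hBB : ⁅B, B⁆ ≤ B ⊓ Subgroup.centralizer (B : Set P) := by
    refine le_inf ?_ hB
    rw [Subgroup.commutator_le]
    intro a ha b hb
    rw [commutatorElement_def]
    exact B.mul_mem (B.mul_mem (B.mul_mem ha hb) (B.inv_mem ha)) (B.inv_mem hb)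
  have h1 : ⁅B ⊔ ccSub B, B⁆ ≤ B ⊓ Subgroup.centralizer (B : Set P) :=
    sup_ccSub_commutator_le B B hBN hBB
  have hBY : ⁅B, ccSub B⁆ ≤ B ⊓ Subgroup.centralizer (B : Set P) := by
    rw [Subgroup.commutator_comm]; exact ccSub_commutator_le B B hBN
  have h2 : ⁅B ⊔ ccSub B, ccSub B⁆ ≤ B ⊓ Subgroup.centralizer (B : Set P) :=
    sup_ccSub_commutator_le B (ccSub B) hYN hBY
  rw [Subgroup.commutator_comm] at h1 h2
  exact sup_commutator_le B (ccSub B) _ _ (le_sup_left.trans (sup_le_normalizer_zB B))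
    (le_sup_right.trans (sup_le_normalizer_zB B)) h1 h2

theorem sup_ccSub_upper [Finite P] (Q : Subgroup P) (hB : B ∈ kUpperStarFamily Q) :
    B ⊔ ccSub B ∈ kUpperStarFamily Q := by
  obtain ⟨hB2, hBQ⟩ := hB
  have hQN : Q ≤ Subgroup.normalizer (B : Set P) := by
    intro q hq
    apply Subgroup.mem_normalizer_fintype
    intro b hb
    have h := (inf_le_left : B ⊓ Subgroup.centralizer (B : Set P) ≤ B)
      (hBQ (Subgroup.commutator_mem_commutator (B.inv_mem hb) hq))
    have e : q * b * q⁻¹ = b * ⁅b⁻¹, q⁆ := by rw [commutatorElement_def]; group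
    rw [e]; exact B.mul_mem hb h
  refine ⟨sup_ccSub_classTwo B hB2, ?_⟩
  exact (sup_ccSub_commutator_le B Q hQN hBQ).trans
    (le_inf (inf_le_left.trans le_sup_left) (zB_le_centralizer_sup B))

theorem sup_ccSub_lower [Finite P] (Q : Subgroup P) (hB : B ∈ kLowerStarFamily Q) :
    B ⊔ ccSub B ∈ kLowerStarFamily Q := by
  obtain ⟨hB2, hQN, hBA⟩ := hB
  refine ⟨sup_ccSub_classTwo B hB2, ?_, ?_⟩
  · intro q hq
    apply Subgroup.mem_normalizer_fintype
    have hmap : (B ⊔ ccSub B).map (MulAut.conj q).toMonoidHom ≤ B ⊔ ccSub B := by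
      rw [Subgroup.map_sup]
      apply sup_le
      · rintro _ ⟨b, hb, rfl⟩
        apply Subgroup.mem_sup_left
        simpa using (Subgroup.mem_normalizer_iff.mp (hQN hq) b).mp hb
      · rintro _ ⟨y, hy, rfl⟩
        have h := (inf_le_left : B ⊓ Subgroup.centralizer (B : Set P) ≤ B) (hy.2 q (hQN hq))
        have e : (MulAut.conj q).toMonoidHom y = (q * y * q⁻¹ * y⁻¹) * y := by simp
        rw [e]
        exact Subgroup.mul_mem _ (Subgroup.mem_sup_left h) (Subgroup.mem_sup_right hy)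
    intro e he
    have := hmap (Subgroup.mem_map_of_mem _ he)
    simpa using this
  · intro A hA hAQ hEA h1 h2
    have hBA' := hBA A hA hAQ (le_sup_left.trans hEA)
      (by rw [eq_bot_iff, ← h1]; exact Subgroup.commutator_mono le_sup_left le_rfl)
      (by
        rw [eq_bot_iff, ← h2]
        exact Subgroup.commutator_mono (Subgroup.commutator_mono
          (le_inf (inf_le_left.trans le_sup_left) (zB_le_centralizer_sup B)) le_rfl) le_rfl)
    exact (sup_ccSub_commutator_le B A (hAQ.trans hQN) hBA').trans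
      (le_inf (inf_le_left.trans le_sup_left) (zB_le_centralizer_sup B))

end

theorem centralizer_sSup_family_le {P : Type*} [Group P] [Finite P] {p : ℕ} [Fact p.Prime]
    (hP : IsPGroup p P) (𝒦 : Set (Subgroup P)) (hne : 𝒦.Nonempty)
    (hstep : ∀ B ∈ 𝒦, B ⊔ ccSub B ∈ 𝒦) :
    Subgroup.centralizer ((sSup 𝒦 : Subgroup P) : Set P) ≤ sSup 𝒦 := by
  obtain ⟨B₀, hB₀⟩ := hne
  obtain ⟨B, -, hBmax⟩ := Finite.exists_le_maximal (p := fun C : Subgroup P => C ∈ 𝒦) hB₀
  have hBK : B ∈ 𝒦 := hBmax.prop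
  have hCB : Subgroup.centralizer (B : Set P) ≤ B := by
    by_contra hnot
    have hY := ccSub_not_le hP B hnot
    have h := hBmax.le_of_ge (hstep B hBK) le_sup_left
    exact hY (le_sup_right.trans h)
  exact ((Subgroup.centralizer_le (SetLike.coe_subset_coe.mpr (le_sSup hBK))).trans hCB).trans
    (le_sSup hBK)

theorem bot_mem_kLowerStarFamily {P : Type*} [Group P] (Q : Subgroup P) :
    (⊥ : Subgroup P) ∈ kLowerStarFamily Q := by
  refine ⟨?_, ?_, ?_⟩
  · show ⁅(⊥ : Subgroup P), (⊥ : Subgroup P)⁆ ≤ Subgroup.centralizer (((⊥ : Subgroup P) : Set P))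
    rw [Subgroup.commutator_bot_left]; exact bot_le
  · rw [Subgroup.normalizer_eq_top]; exact le_top
  · intro A _ _ _ _ _
    rw [Subgroup.commutator_bot_left]; exact bot_le

theorem bot_mem_kUpperStarFamily {P : Type*} [Group P] (Q : Subgroup P) :
    (⊥ : Subgroup P) ∈ kUpperStarFamily Q := by
  refine ⟨?_, ?_⟩
  · show ⁅(⊥ : Subgroup P), (⊥ : Subgroup P)⁆ ≤ Subgroup.centralizer (((⊥ : Subgroup P) : Set P))
    rw [Subgroup.commutator_bot_left]; exact bot_le
  · rw [Subgroup.commutator_bot_left]; exact bot_le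

theorem centralizer_kSeqEven_le {P : Type*} [Group P] [Finite P] {p : ℕ} [Fact p.Prime]
    (hP : IsPGroup p P) (n : ℕ) :
    Subgroup.centralizer ((kSeqEven P n : Subgroup P) : Set P) ≤ kSeqEven P n :=
  centralizer_sSup_family_le hP (kLowerStarFamily (kSeqOdd P n))
    ⟨⊥, bot_mem_kLowerStarFamily _⟩ (fun B hB => sup_ccSub_lower B _ hB)

theorem centralizer_kSeqOdd_succ_le {P : Type*} [Group P] [Finite P] {p : ℕ} [Fact p.Prime]
    (hP : IsPGroup p P) (n : ℕ) :
    Subgroup.centralizer ((kSeqOdd P (n + 1) : Subgroup P) : Set P) ≤ kSeqOdd P (n + 1) :=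
  centralizer_sSup_family_le hP (kUpperStarFamily (sSup (kLowerStarFamily (kSeqOdd P n))))
    ⟨⊥, bot_mem_kUpperStarFamily _⟩ (fun B hB => sup_ccSub_upper B _ hB)

end Cfsg.Agent.Helper4
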