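import Mathlib
import Cfsg.Agent.Helper4.GL2

/-! Sylow `p`-subgroups of `SL_2(q)` in the defining characteristic, seen inside `GL_2(q)`. -/

set_option autoImplicit false

namespace Cfsg.Agent.Helper4.GL2

open Matrix Matrix.SpecialLinearGroup

variable {F : Type*} [Field F]

theorem T_eq_toGL (c : F) (h01 : (0 : Fin 2) ≠ 1) :
    T c = toGL (transvection h01 c : SpecialLinearGroup (Fin 2) F) := by
  apply Units.ext
  rw [T_val]
  show _ = (transvection h01 c : SpecialLinearGroup (Fin 2) F).1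
  rw [transvection_coe]
  ext i j
  fin_cases i <;> fin_cases j <;> simp

theorem exists_conj_toGL (g : GL (Fin 2) F) (A : SpecialLinearGroup (Fin 2) F) :
    ∃ B : SpecialLinearGroup (Fin 2) F, toGL B = g * toGL A * g⁻¹ := by
  have hdet : Matrix.GeneralLinearGroup.det (g * toGL A * g⁻¹) = 1 := by
    have hA : Matrix.GeneralLinearGroup.det (toGL A) = 1 := by
      apply Units.ext
      simp
    rw [map_mul, map_mul, map_inv, hA, mul_one, mul_inv_cancel]
  have hdet' : ((g * toGL A * g⁻¹ : GL (Fin 2) F) : Matrix (Fin 2) (Fin 2) F).det = 1 := by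
    exact congrArg Units.val hdet
  exact ⟨⟨_, hdet'⟩, Units.ext rfl⟩

/-- Conjugating the upper unitriangular group by a non-upper-triangular `k`, and then by a
suitable `T t`, gives the lower unitriangular group. -/
theorem exists_lower (k : GL (Fin 2) F) (hc : (k : Matrix (Fin 2) (Fin 2) F) 1 0 ≠ 0) (s' : F)
    (h10 : (1 : Fin 2) ≠ 0) :
    ∃ t s : F, T t * k * T s =
      toGL (transvection h10 s' : SpecialLinearGroup (Fin 2) F) * (T t * k) := by
  refine ⟨-((k : Matrix (Fin 2) (Fin 2) F) 0 0) / (k : Matrix (Fin 2) (Fin 2) F) 1 0,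
    s' * ((k : Matrix (Fin 2) (Fin 2) F) 0 1 +
      (-((k : Matrix (Fin 2) (Fin 2) F) 0 0) / (k : Matrix (Fin 2) (Fin 2) F) 1 0) *
        (k : Matrix (Fin 2) (Fin 2) F) 1 1) / (k : Matrix (Fin 2) (Fin 2) F) 1 0, ?_⟩
  apply Units.ext
  simp only [Units.val_mul, T_val]
  show _ = (transvection h10 s' : SpecialLinearGroup (Fin 2) F).1 * _
  rw [transvection_coe]
  ext i j
  fin_cases i <;> fin_cases j <;> simp only [Matrix.mul_apply, Fin.sum_univ_two] <;>
    simp <;> field_simp <;> first | ring1 | simp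

section sylow

variable [Fintype F] (p : ℕ) [Fact p.Prime] [CharP F p]

/-- A Sylow `p`-subgroup of `SL_2(F)` is the set of elements of `SL_2(F)` lying in some
`GL_2`-conjugate of the upper unitriangular group. -/
theorem sl2_sylow_conj (P : Sylow p (SpecialLinearGroup (Fin 2) F)) :
    ∃ g : GL (Fin 2) F, ∀ x : SpecialLinearGroup (Fin 2) F,
      x ∈ (P : Subgroup (SpecialLinearGroup (Fin 2) F)) ↔ ∃ b : F, g⁻¹ * toGL x * g = T b := by
  obtain ⟨P', hP'⟩ := (P.isPGroup'.map (toGL : SpecialLinearGroup (Fin 2) F →* GL (Fin 2) F)).exists_le_sylow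
  obtain ⟨g, hg⟩ := exists_conj p P'
  refine ⟨g, fun x => ?_⟩
  rw [← hg]
  have h1 : IsPGroup p ((P' : Subgroup (GL (Fin 2) F)).comap
      (toGL : SpecialLinearGroup (Fin 2) F →* GL (Fin 2) F)) :=
    P'.isPGroup'.comap_of_injective _ toGL_injective
  have h2 : (P : Subgroup (SpecialLinearGroup (Fin 2) F)) ≤
      (P' : Subgroup (GL (Fin 2) F)).comap
        (toGL : SpecialLinearGroup (Fin 2) F →* GL (Fin 2) F) :=
    fun y hy => hP' (Subgroup.mem_map_of_mem _ hy)
  have h3 := P.is_maximal' h1 h2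
  rw [← h3, Subgroup.mem_comap]

end sylow

end Cfsg.Agent.Helper4.GL2
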