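import Mathlib

set_option autoImplicit false

namespace Cfsg.Agent.Helper4

/-- If `H` normalizes `K` then every element of `H ⊔ K` is a product `a * b` with `a ∈ H`,
`b ∈ K`. -/
theorem exists_mul_of_mem_sup_of_le_normalizer {G : Type*} [Group G] {H K : Subgroup G}
    (h : H ≤ Subgroup.normalizer (K : Set G)) {x : G} (hx : x ∈ H ⊔ K) :
    ∃ a ∈ H, ∃ b ∈ K, x = a * b := by
  let L : Subgroup G :=
    { carrier := {x | ∃ a ∈ H, ∃ b ∈ K, x = a * b}
      mul_mem' := by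
        rintro _ _ ⟨a, ha, b, hb, rfl⟩ ⟨a', ha', b', hb', rfl⟩
        refine ⟨a * a', H.mul_mem ha ha', a'⁻¹ * b * a' * b', K.mul_mem ?_ hb', by group⟩
        have h1 := (Subgroup.mem_normalizer_iff.mp (h (H.inv_mem ha')) b).mp hb
        simpa using h1
      one_mem' := ⟨1, H.one_mem, 1, K.one_mem, by simp⟩
      inv_mem' := by
        rintro _ ⟨a, ha, b, hb, rfl⟩
        refine ⟨a⁻¹, H.inv_mem ha, a * b⁻¹ * a⁻¹, ?_, by group⟩
        exact (Subgroup.mem_normalizer_iff.mp (h ha) b⁻¹).mp (K.inv_mem hb) }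
  have hHL : H ≤ L := fun a ha => ⟨a, ha, 1, K.one_mem, by simp⟩
  have hKL : K ≤ L := fun b hb => ⟨1, H.one_mem, b, hb, by simp⟩
  exact (sup_le hHL hKL) hx

end Cfsg.Agent.Helper4
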