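import Mathlib
import Cfsg.Agent.Helper4.WielandtCrit

/-! The general zipper lemma (Kurzweil–Stellmacher form). -/

namespace Cfsg.Agent.Helper4

universe u

open scoped Pointwise

theorem isSubnormal_sSup_rel {G : Type u} [Group G] [Finite G] (V : Subgroup G)
    (S : Set (Subgroup G)) (hSV : ∀ B ∈ S, B ≤ V)
    (hS : ∀ B ∈ S, (B.subgroupOf V).IsSubnormal) :
    ((sSup S).subgroupOf V).IsSubnormal := by
  have hfin : S.Finite := Set.toFinite S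
  induction S, hfin using Set.Finite.induction_on with
  | empty => rw [sSup_empty, Subgroup.bot_subgroupOf]; exact Subgroup.IsSubnormal.bot
  | insert ha hs ih =>
    rw [sSup_insert, Subgroup.subgroupOf_sup (hSV _ (Set.mem_insert _ _))
      (sSup_le (fun B hB => hSV B (Set.mem_insert_of_mem _ hB)))]
    exact isSubnormal_sup _ _ (hS _ (Set.mem_insert _ _))
      (ih (fun B hB => hSV B (Set.mem_insert_of_mem _ hB))
        (fun B hB => hS B (Set.mem_insert_of_mem _ hB)))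

/-- Relative version of `exists_mem_normalizing_sSup`. -/
theorem exists_mem_normalizing_sSup_rel {G : Type u} [Group G] [Finite G] (V : Subgroup G)
    (S S₀ : Set (Subgroup G)) (hSV : ∀ B ∈ S, B ≤ V)
    (hS : ∀ B ∈ S, (B.subgroupOf V).IsSubnormal)
    (hconj : ∀ B ∈ S, ∀ v ∈ V, MulAut.conj v • B ∈ S) (h₀ : S₀ ⊂ S) :
    ∃ X ∈ S, X ∉ S₀ ∧ X ≤ Subgroup.normalizer ((sSup S₀ : Subgroup G) : Set G) := by
  have hJV : sSup S₀ ≤ V := sSup_le (fun B hB => hSV B (h₀.1 hB))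
  have hJ : ((sSup S₀).subgroupOf V).IsSubnormal :=
    isSubnormal_sSup_rel V S₀ (fun B hB => hSV B (h₀.1 hB)) (fun U hU => hS U (h₀.1 hU))
  obtain ⟨X₀, hX₀S, hX₀⟩ := Set.exists_of_ssubset h₀
  obtain ⟨L, ⟨hJL, hJsn, X, hXS, hX0, hXL⟩, hLmin⟩ := (wellFounded_lt (α := Subgroup G)).has_min
    {L : Subgroup G | sSup S₀ ≤ L ∧ ((sSup S₀).subgroupOf L).IsSubnormal ∧
      ∃ X ∈ S, X ∉ S₀ ∧ X ≤ L}
    ⟨V, hJV, hJ, X₀, hX₀S, hX₀, hSV X₀ hX₀S⟩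
  refine ⟨X, hXS, hX0, ?_⟩
  rcases hJsn.lt_normal with htop | ⟨K', hK'n, hJK', hK'lt⟩
  · rw [Subgroup.subgroupOf_eq_top] at htop
    exact (hXL.trans htop).trans Subgroup.le_normalizer
  · have hJL' : sSup S₀ ≤ K'.map L.subtype := by
      have := Subgroup.map_mono (f := L.subtype) hJK'
      rwa [Subgroup.map_subgroupOf_eq_of_le hJL] at this
    have hL'L : K'.map L.subtype ≤ L := Subgroup.map_subtype_le K'
    have hL'lt : K'.map L.subtype < L := by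
      refine lt_of_le_of_ne hL'L (fun h => hK'lt.ne ?_)
      apply Subgroup.map_injective L.subtype_injective
      rw [h, ← MonoidHom.range_eq_map, Subgroup.range_subtype]
    have hJsn' : ((sSup S₀).subgroupOf (K'.map L.subtype)).IsSubnormal :=
      isSubnormal_subgroupOf_of_le hL'L hJsn
    have hno : ∀ Y ∈ S, Y ≤ K'.map L.subtype → Y ∈ S₀ := by
      intro Y hY hYL'
      by_contra hY0
      exact hLmin _ ⟨hJL', hJsn', Y, hY, hY0, hYL'⟩ hL'lt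
    apply le_normalizer_sSup_of_conj
    intro x hx Y hY
    have hYS : Y ∈ S := h₀.1 hY
    have hY' : MulAut.conj x • Y ∈ S := hconj Y hYS x (hSV X hXS hx)
    have hYL' : MulAut.conj x • Y ≤ K'.map L.subtype := by
      intro z hz
      rw [Subgroup.mem_smul_pointwise_iff_exists] at hz
      obtain ⟨y', hy', rfl⟩ := hz
      have h3 : y' ∈ K'.map L.subtype := hJL' (le_sSup hY hy')
      obtain ⟨k, hk, rfl⟩ := h3
      refine ⟨(⟨x, hXL hx⟩ : L) * k * (⟨x, hXL hx⟩ : L)⁻¹, hK'n.conj_mem k hk _, ?_⟩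
      simp [MulAut.smul_def]
    exact le_sSup (hno _ hY' hYL')

/-- The general zipper lemma. -/
theorem zipper_general {G : Type u} [Group G] [Finite G] (A : Subgroup G)
    (U : Set (Subgroup G)) (hU : U.Nonempty) (S : Subgroup G → Set (Subgroup G))
    (hS : ∀ V B : Subgroup G, B ∈ S V ↔
      (∃ g : G, B = MulAut.conj g • A) ∧ B ≤ V ∧ (B.subgroupOf V).IsSubnormal)
    (h2 : ∀ V ∈ U, ∀ W ∈ U, ∀ B ∈ S W, B ≤ V → B ∈ S V)
    (h3 : ∀ V ∈ U, ∀ W ∈ U, ∃ X ∈ U,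
      Subgroup.normalizer ((sSup (S V ∩ S W) : Subgroup G) : Set G) ≤ X) :
    ∃ M ∈ U, ∀ V ∈ U, V ≤ M := by
  by_contra hcon
  push Not at hcon
  -- maximal members
  have hmaxex : ∀ V ∈ U, ∃ V₁ ∈ U, V ≤ V₁ ∧ ∀ V' ∈ U, V₁ ≤ V' → V' = V₁ := by
    intro V hV
    obtain ⟨V₁, ⟨hV₁U, hVV₁⟩, hV₁max⟩ := (wellFounded_gt (α := Subgroup G)).has_min
      {V' : Subgroup G | V' ∈ U ∧ V ≤ V'} ⟨V, hV, le_rfl⟩
    refine ⟨V₁, hV₁U, hVV₁, fun V' hV' hle => ?_⟩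
    by_contra hne
    exact hV₁max V' ⟨hV', hVV₁.trans hle⟩ (lt_of_le_of_ne hle (fun h => hne h.symm))
  -- closure of `S V` under `V`-conjugation
  have hSconj : ∀ V : Subgroup G, ∀ B ∈ S V, ∀ v ∈ V, MulAut.conj v • B ∈ S V := by
    intro V B hB v hv
    rw [hS] at hB ⊢
    obtain ⟨⟨g, rfl⟩, hBV, hBsn⟩ := hB
    refine ⟨⟨v * g, by rw [map_mul, mul_smul]⟩, smul_le_of_le_of_mem V _ hBV v hv, ?_⟩
    have h1 := isSubnormal_subgroupOf_smul v _ V hBsn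
    rwa [Subgroup.conj_smul_eq_self_of_mem hv] at h1
  have hVnorm : ∀ V : Subgroup G,
      V ≤ Subgroup.normalizer ((sSup (S V) : Subgroup G) : Set G) := by
    intro V
    apply le_normalizer_sSup_of_conj
    intro m hm Y hY
    exact le_sSup (hSconj V Y hY m hm)
  -- a pair of distinct maximal members
  obtain ⟨V₀, hV₀⟩ := hU
  obtain ⟨Va, hVaU, _, hVamax⟩ := hmaxex V₀ hV₀
  obtain ⟨V', hV'U, hV'⟩ := hcon Va hVaU
  obtain ⟨Wa, hWaU, hV'Wa, hWamax⟩ := hmaxex V' hV'U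
  have hne : Va ≠ Wa := fun h => hV' (h ▸ hV'Wa)
  set P : Set (Subgroup G × Subgroup G) := {p | (p.1 ∈ U ∧ ∀ V' ∈ U, p.1 ≤ V' → V' = p.1) ∧
    (p.2 ∈ U ∧ ∀ V' ∈ U, p.2 ≤ V' → V' = p.2) ∧ p.1 ≠ p.2} with hPdef
  obtain ⟨⟨V, W⟩, ⟨⟨hVU, hVmax⟩, ⟨hWU, hWmax⟩, hVW⟩, hbest⟩ :=
    Set.exists_max_image P (fun p => (S p.1 ∩ S p.2).ncard) (Set.toFinite P)
      ⟨(Va, Wa), ⟨hVaU, hVamax⟩, ⟨hWaU, hWamax⟩, hne⟩
  simp only at hVU hVmax hWU hWmax hVW hbest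
  obtain ⟨X₀, hX₀U, hNX₀⟩ := h3 V hVU W hWU
  obtain ⟨X, hXU, hX₀X, hXmax⟩ := hmaxex X₀ hX₀U
  have hNX : Subgroup.normalizer ((sSup (S V ∩ S W) : Subgroup G) : Set G) ≤ X :=
    hNX₀.trans hX₀X
  have hclaim1 : S V ∩ S W ⊆ S X := by
    intro C hC
    exact h2 X hXU V hVU C hC.1 (((le_sSup hC).trans Subgroup.le_normalizer).trans hNX)
  have hclaim2 : ∀ V₁ W₁ : Subgroup G, V₁ ∈ U → (∀ V' ∈ U, V₁ ≤ V' → V' = V₁) → W₁ ∈ U →
      S V₁ ∩ S W₁ = S V ∩ S W → ¬ S V₁ ⊆ S W₁ → X = V₁ := by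
    intro V₁ W₁ hV₁U hV₁max hW₁U hinter hnsub
    have hss : S V ∩ S W ⊂ S V₁ := by
      rw [← hinter]
      exact ⟨Set.inter_subset_left, fun h => hnsub (fun B hB => (h hB).2)⟩
    obtain ⟨B, hB, hB0, hBN⟩ := exists_mem_normalizing_sSup_rel V₁ (S V₁) (S V ∩ S W)
      (fun B hB => ((hS V₁ B).mp hB).2.1) (fun B hB => ((hS V₁ B).mp hB).2.2)
      (hSconj V₁) hss
    have hBX : B ∈ S X := h2 X hXU V₁ hV₁U B hB (hBN.trans hNX)
    by_contra hXV₁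
    have hlt : (S V ∩ S W).ncard < (S V₁ ∩ S X).ncard := by
      apply Set.ncard_lt_ncard _ (Set.toFinite _)
      refine ⟨fun C hC => ⟨hss.1 hC, hclaim1 hC⟩, fun h => hB0 (h ⟨hB, hBX⟩)⟩
    have hle := hbest (V₁, X) ⟨⟨hV₁U, hV₁max⟩, ⟨hXU, hXmax⟩, fun h => hXV₁ h.symm⟩
    simp only at hle
    omega
  have hfinal : ∀ V₁ W₁ : Subgroup G, V₁ ∈ U → (∀ V' ∈ U, V₁ ≤ V' → V' = V₁) → W₁ ∈ U →
      (∀ V' ∈ U, W₁ ≤ V' → V' = W₁) → V₁ ≠ W₁ →
      S V₁ ∩ S W₁ = S V ∩ S W → S W₁ ⊆ S V₁ → False := by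
    intro V₁ W₁ hV₁U hV₁max hW₁U hW₁max hne₁ hinter hsub
    have hJ1 : S V ∩ S W = S W₁ := by
      rw [← hinter]; exact Set.inter_eq_right.mpr hsub
    have hW₁X : W₁ ≤ X := by
      have := hVnorm W₁
      rw [← hJ1] at this
      exact this.trans hNX
    have hXW₁ : X = W₁ := hW₁max X hXU hW₁X
    have hsub2 : S V₁ ⊆ S W₁ := by
      by_contra hnsub
      exact hne₁ ((hclaim2 V₁ W₁ hV₁U hV₁max hW₁U hinter hnsub).symm.trans hXW₁)
    have hJ2 : S V ∩ S W = S V₁ := by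
      rw [← hinter]; exact Set.inter_eq_left.mpr hsub2
    have hV₁X : V₁ ≤ X := by
      have := hVnorm V₁
      rw [← hJ2] at this
      exact this.trans hNX
    have hXV₁ : X = V₁ := hV₁max X hXU hV₁X
    exact hne₁ (hXV₁.symm.trans hXW₁)
  by_cases hVWsub : S V ⊆ S W
  · exact hfinal W V hWU hWmax hVU hVmax (fun h => hVW h.symm) (Set.inter_comm _ _) hVWsub
  · have hXV := hclaim2 V W hVU hVmax hWU rfl hVWsub
    by_cases hWVsub : S W ⊆ S V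
    · exact hfinal V W hVU hVmax hWU hWmax hVW rfl hWVsub
    · have hXW := hclaim2 W V hWU hWmax hVU (Set.inter_comm _ _) hWVsub
      exact hVW (hXV.symm.trans hXW)

end Cfsg.Agent.Helper4
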